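import Mathlib
import Cfsg.Agent.Classical.UnitCentres
import Cfsg.Agent.Classical.PseudoRefl
import Cfsg.Agent.Classical.MonoBasics
import Cfsg.Agent.Classical.CircleSums
import Cfsg.Agent.Eq.Def_GeometricClasses
import Cfsg.Agent.Eq.Def_ClassicalGeometry

/-!
Monomial unitary matrices for the standard hermitian form.
-/

set_option autoImplicit false

namespace CfsgLib.UnitMono

open Matrix CfsgLib.TransvGL CfsgLib.MonoBasics CfsgLib.UnitCentres CfsgLib.PseudoRefl
  CfsgLib.CircleSums

variable {ι : Type} [Fintype ι] [DecidableEq ι] {F : Type*} [Field F]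

local notation "ax" i:max => (Pi.single i (1 : F) : ι → F)

/-- The standard hermitian form for `σ`. -/
def sf (σ : F ≃+* F) (x y : ι → F) : F := ∑ i, x i * σ (y i)

variable [Fintype F] {q : ℕ} {σ : F ≃+* F}

/-- The field has `q ^ 2` elements and `σ` is the `q`-th power map. -/
structure Std (q : ℕ) (σ : F ≃+* F) : Prop where
  card : Fintype.card F = q ^ 2
  frob : ∀ x, σ x = x ^ q

theorem Std.two_le (hS : Std q σ) : 2 ≤ q := CircleSums.two_le hS.card hS.frob

theorem Std.invol (hS : Std q σ) (x : F) : σ (σ x) = x := CircleSums.invol hS.card hS.frob x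

theorem Std.isUnitary (hS : Std q σ) : Cfsg.Geo.IsUnitaryForm σ (sf σ (ι := ι)) where
  ne_refl := fun e => by
    classical
    have h := CircleSums.card_fixed hS.card hS.frob
    rw [Finset.filter_true_of_mem (fun z _ => by rw [e]; rfl), Finset.card_univ, hS.card] at h
    have := hS.two_le
    nlinarith
  involutive := hS.invol
  add_left x y v := by simp [sf, add_mul, Finset.sum_add_distrib]
  smul_left c x v := by simp [sf, Finset.mul_sum, mul_assoc]
  herm v w := by
    simp only [sf, map_sum, map_mul, hS.invol]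
    exact Finset.sum_congr rfl fun i _ => mul_comm _ _
  nondegenerate v hv := by
    obtain ⟨i, hi⟩ := Function.ne_iff.1 hv
    refine ⟨⟨ax i, ?_⟩, ⟨ax i, ?_⟩⟩
    · simpa [sf, Pi.single_apply, apply_ite σ] using hi
    · simpa [sf, Pi.single_apply, apply_ite σ] using hi

omit [Fintype F] in
theorem sf_ax_left (i : ι) (x : ι → F) : sf σ (ax i) x = σ (x i) := by
  simp [sf, Pi.single_apply]

omit [Fintype F] in
theorem sf_ax_right (i : ι) (x : ι → F) : sf σ x (ax i) = x i := by
  simp [sf, Pi.single_apply, apply_ite σ]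

omit [Fintype F] in
theorem sf_ax_self (i : ι) : sf σ (ax i) (ax i) = 1 := by simp [sf_ax_right]

/-- The coordinate of a preimage. -/
theorem inv_apply_eq {g : GL ι F} (hg : Iso (sf σ) g) (x : ι → F) (j : ι) :
    (((g⁻¹ : GL ι F) : Matrix ι ι F) *ᵥ x) j = sf σ x ((g : Matrix ι ι F) *ᵥ ax j) := by
  rw [← hg.inv x, inv_mulVec_mulVec, sf_ax_right]

theorem iso_monoGL (π : Equiv.Perm ι) (c : ι → Fˣ) (hc : ∀ i, Cir σ (c i : F)) :
    Iso (sf σ) (monoGL π c) := fun x y => by
  simp only [sf, monoGL_mulVec]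
  rw [← Equiv.sum_comp π]
  refine Finset.sum_congr rfl fun i _ => ?_
  rw [Equiv.symm_apply_apply, map_mul]
  linear_combination (x i * σ (y i)) * (id (hc i) : (c i : F) * σ (c i : F) = 1)

theorem iso_dg (t : ι → Fˣ) (ht : ∀ i, Cir σ (t i : F)) : Iso (sf σ) (dg t) := fun x y => by
  simp only [sf, dg_mulVec]
  refine Finset.sum_congr rfl fun i _ => ?_
  rw [map_mul]
  linear_combination (x i * σ (y i)) * (id (ht i) : (t i : F) * σ (t i : F) = 1)

/-- The pseudo-reflection in a vector of norm one. -/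
noncomputable def uRefl (hS : Std q σ) {u : ι → F} (hu : sf σ u u = 1) (δ : Fˣ) : GL ι F :=
  refl (upair hS.isUnitary u) (y := u) hu δ

variable (hS : Std q σ)

theorem uRefl_mulVec {u : ι → F} (hu : sf σ u u = 1) (δ : Fˣ) (x : ι → F) :
    (uRefl hS hu δ : Matrix ι ι F) *ᵥ x = x + (((δ : F) - 1) * sf σ x u) • u :=
  refl_mulVec _ _ _ _

theorem det_uRefl {u : ι → F} (hu : sf σ u u = 1) (δ : Fˣ) :
    (uRefl hS hu δ : Matrix ι ι F).det = δ := det_refl _ _ _

theorem uRefl_iso {u : ι → F} (hu : sf σ u u = 1) {δ : Fˣ} (hδ : Cir σ (δ : F)) :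
    Iso (sf σ) (uRefl hS hu δ) := fun x y => by
  have hf := hS.isUnitary (ι := ι)
  rw [uRefl_mulVec, uRefl_mulVec, hf.add_left, UnitCentres.add_right hf, UnitCentres.add_right hf,
    hf.smul_left, hf.smul_left, smul_right hf, smul_right hf, hu, map_mul, map_sub, map_one,
    ← hf.herm u y]
  linear_combination (sf σ x u * sf σ u y) * (id hδ : (δ : F) * σ (δ : F) = 1)

theorem uRefl_ax_mulVec (k : ι) (δ : Fˣ) (x : ι → F) (i : ι) :
    ((uRefl hS (sf_ax_self k) δ : Matrix ι ι F) *ᵥ x) i = (if i = k then (δ : F) else 1) * x i := by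
  rw [uRefl_mulVec, sf_ax_right]
  by_cases h : i = k
  · subst h; simp; ring
  · simp [h]

theorem uRefl_ax_eq_dg (k : ι) (δ : Fˣ) :
    uRefl hS (sf_ax_self (σ := σ) k) δ = dg fun i => if i = k then δ else 1 := by
  refine ext_mulVec fun x => funext fun i => ?_
  rw [uRefl_ax_mulVec, dg_mulVec]
  split_ifs <;> simp

/-- Conjugation moves the eigenvector. -/
theorem conj_uRefl {g : GL ι F} (hg : Iso (sf σ) g) {u : ι → F} (hu : sf σ u u = 1) (δ : Fˣ) :
    g * uRefl hS hu δ * g⁻¹ =
      uRefl hS (u := (g : Matrix ι ι F) *ᵥ u) (by rw [hg]; exact hu) δ := by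
  refine ext_mulVec fun x => ?_
  rw [Units.val_mul, Units.val_mul, ← mulVec_mulVec, ← mulVec_mulVec, uRefl_mulVec, mulVec_add,
    mulVec_smul, mulVec_inv_mulVec, uRefl_mulVec]
  conv_rhs => rw [← mulVec_inv_mulVec g x, hg, mulVec_inv_mulVec]

/-- Overgroups of the special monomial unitary group inside the special unitary group. -/
structure Over (q : ℕ) (σ : F ≃+* F) (M : Subgroup (GL ι F)) : Prop where
  std : Std q σ
  mono_mem : ∀ g : GL ι F, Iso (sf σ) g → g ∈ Cfsg.Geo.specialLinear ι F → IsMono g → g ∈ M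
  iso : ∀ g ∈ M, Iso (sf σ) g
  special : M ≤ Cfsg.Geo.specialLinear ι F

variable {M : Subgroup (GL ι F)} (hO : Over q σ M)
include hO

theorem Over.dg_mem {t : ι → Fˣ} (ht : ∀ i, Cir σ (t i : F)) (hp : ∏ i, t i = 1) : dg t ∈ M :=
  hO.mono_mem _ (iso_dg t ht) (dg_mem_specialLinear hp) (isMono_dg t)

theorem Over.torPair_mem {k l : ι} (hkl : k ≠ l) {ε : Fˣ} (hε : Cir σ (ε : F)) :
    dg (torPair k l ε) ∈ M := by
  refine hO.dg_mem (fun i => ?_) (prod_torPair hkl ε)
  unfold torPair
  split_ifs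
  · exact hε
  · rw [Units.val_inv_eq_inv_val]; exact hε.inv
  · exact cir_one σ

/-- A special monomial isometry inducing a given permutation, scaling one coordinate. -/
theorem Over.exists_perm (π : Equiv.Perm ι) (r : ι) :
    ∃ h ∈ M, ∃ s : Fˣ, Cir σ (s : F) ∧ ∀ j,
      (h : Matrix ι ι F) *ᵥ ax j = (if j = r then (s : F) else 1) • ax (π j) := by
  classical
  set g0 : GL ι F := monoGL π fun _ => (1 : Fˣ) with hg0
  have hg0i : Iso (sf σ) g0 := iso_monoGL π _ fun _ => cir_one σ
  have hd : Cir σ (g0 : Matrix ι ι F).det := det_norm hO.std.isUnitary hg0i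
  set s : Fˣ := (Units.mk0 _ hd.ne_zero)⁻¹ with hs
  have hsc : Cir σ (s : F) := by rw [hs, Units.val_inv_eq_inv_val]; exact hd.inv
  set c : ι → Fˣ := fun i => if i = r then s else 1 with hc
  have hci : ∀ i, Cir σ (c i : F) := fun i => by
    simp only [hc]; split_ifs
    · exact hsc
    · exact cir_one σ
  refine ⟨g0 * dg c, hO.mono_mem _ (hg0i.mul (iso_dg c hci)) ?_ ((isMono_monoGL π _).mul (isMono_dg c)),
    s, hsc, fun j => ?_⟩
  · rw [PseudoRefl.mem_specialLinear_iff, Units.val_mul, det_mul,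
      show (dg c : Matrix ι ι F).det = s from ?_]
    · rw [hs, Units.val_inv_eq_inv_val, Units.val_mk0, mul_inv_cancel₀ hd.ne_zero]
    · show (Matrix.diagonal fun i => (c i : F)).det = s
      rw [Matrix.det_diagonal, ← Units.coe_prod, hc, Finset.prod_ite_eq' Finset.univ r]
      simp
  · rw [Units.val_mul, ← mulVec_mulVec, dg_mulVec_ax, mulVec_smul, hg0, monoGL_mulVec_ax, hc]
    simp only
    split_ifs <;> simp

omit hO in
/-- A monomial matrix displacing every vector inside a plane moves at most six axes. -/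
theorem card_supp_le_six {x : GL ι F} (hx : IsMono x) {u w : ι → F}
    (hW : ∀ y, (x : Matrix ι ι F) *ᵥ y - y ∈ Submodule.span F {u, w}) {y₀ v : ι → F}
    (hv : (x : Matrix ι ι F) *ᵥ y₀ - y₀ = v) {S : Finset ι} (hS : ∀ i ∈ S, v i ≠ 0) :
    S.card ≤ 6 := by
  classical
  choose π hπ using hx
  have hinj := mono_index_injective hπ
  let L : (ι → F) →ₗ[F] (ι → F) := Matrix.toLin' (x : Matrix ι ι F) - LinearMap.id
  have hL : ∀ y, L y = (x : Matrix ι ι F) *ᵥ y - y := fun y => by simp [L]
  set Mv := Finset.univ.filter fun j => L (ax j) ≠ 0 with hMv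
  have hsupp : ∀ j i, L (ax j) i ≠ 0 → i ∈ Mv := by
    intro j i hi
    obtain ⟨c, hc⟩ := Submodule.mem_span_singleton.1 (hπ j)
    rw [hL, ← hc, Pi.sub_apply, Pi.smul_apply, smul_eq_mul] at hi
    rw [hMv, Finset.mem_filter]
    refine ⟨Finset.mem_univ _, fun h0 => ?_⟩
    by_cases hij : i = j
    · subst hij; rw [hL, ← hc] at h0
      exact hi (by simpa using congrFun h0 i)
    · rw [Pi.single_eq_of_ne hij, sub_zero] at hi
      have hiπ : i = π j := by
        by_contra h; rw [Pi.single_eq_of_ne h, mul_zero] at hi; exact hi rfl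
      obtain ⟨d, hd⟩ := Submodule.mem_span_singleton.1 (hπ i)
      rw [hL, ← hd] at h0
      have h2 : π i ≠ i := fun e => hij (hinj (by rw [← hiπ, e]))
      simpa [Ne.symm h2] using congrFun h0 i
  have hvM : S ⊆ Mv := by
    intro i hi
    by_contra h
    refine hS i hi ?_
    rw [← hv, ← hL, ← Finset.univ_sum_single y₀, map_sum, Finset.sum_apply]
    refine Finset.sum_eq_zero fun j _ => ?_
    rw [show Pi.single j (y₀ j) = y₀ j • ax j by simp [← Pi.single_smul'], map_smul, Pi.smul_apply]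
    by_contra hne
    exact h (hsupp j i fun e => hne (by rw [e, smul_zero]))
  refine (Finset.card_le_card hvM).trans ?_
  by_contra hbig
  push Not at hbig
  have hpick : ∀ T : Finset ι, T.card ≤ 2 →
      ∃ j ∈ Mv, ∀ i ∈ T, j ≠ i ∧ j ≠ π i ∧ π j ≠ i := by
    intro T hT
    obtain ⟨j, hj⟩ := Finset.exists_mem_notMem_of_card_lt_card
      (s := T ∪ T.image π ∪ Finset.univ.filter fun j => π j ∈ T) (t := Mv) (by
        have h1 : (Finset.univ.filter fun j => π j ∈ T).card ≤ T.card :=
          Finset.card_le_card_of_injOn π (fun j hj => by simpa using hj) hinj.injOn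
        have h2 := Finset.card_union_le (T ∪ T.image π) (Finset.univ.filter fun j => π j ∈ T)
        have h3 := Finset.card_union_le T (T.image π)
        have h4 := Finset.card_image_le (s := T) (f := π)
        omega)
    refine ⟨j, hj.1, fun i hi => ?_⟩
    simp only [Finset.mem_union, Finset.mem_image, Finset.mem_filter, Finset.mem_univ, true_and,
      not_or, not_exists, not_and] at hj
    exact ⟨fun e => hj.2.1.1 (e ▸ hi), fun e => hj.2.1.2 i hi e.symm, fun e => hj.2.2 (e ▸ hi)⟩
  obtain ⟨a, ha, -⟩ := hpick ∅ (by simp)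
  obtain ⟨b, hb, hb'⟩ := hpick {a} (by simp)
  obtain ⟨c, hc, hc'⟩ := hpick {a, b} Finset.card_le_two
  simp only [Finset.mem_singleton, forall_eq, Finset.mem_insert] at hb' hc'
  have hca := hc' a (Or.inl rfl)
  have hcb := hc' b (Or.inr rfl)
  have hzero : ∀ j i, i ≠ j → i ≠ π j → L (ax j) i = 0 := by
    intro j i h1 h2
    obtain ⟨s, hs⟩ := Submodule.mem_span_singleton.1 (hπ j)
    rw [hL, ← hs]; simp [h1, h2]
  have hne : ∀ j ∈ Mv, L (ax j) j ≠ 0 := by
    intro j hj h0
    rw [hMv, Finset.mem_filter] at hj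
    obtain ⟨s, hs⟩ := Submodule.mem_span_singleton.1 (hπ j)
    rw [hL, ← hs] at h0 hj
    by_cases hπj : π j = j
    · rw [hπj] at h0 hj
      have : s = 1 := by simpa [sub_eq_zero] using h0
      exact hj.2 (by rw [this, one_smul, sub_self])
    · simp [Ne.symm hπj] at h0
  have hli : LinearIndependent F ![L (ax a), L (ax b), L (ax c)] := by
    rw [Fintype.linearIndependent_iff]
    intro g hg
    simp only [Fin.sum_univ_three, Matrix.cons_val_zero, Matrix.cons_val_one, Matrix.cons_val_two,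
      Matrix.head_cons, Matrix.tail_cons] at hg
    have e1 := congrFun hg a
    have e2 := congrFun hg b
    have e3 := congrFun hg c
    simp only [Pi.add_apply, Pi.smul_apply, Pi.zero_apply, smul_eq_mul,
      hzero b a (Ne.symm hb'.1) (Ne.symm hb'.2.2), hzero c a (Ne.symm hca.1) (Ne.symm hca.2.2),
      hzero a b hb'.1 hb'.2.1, hzero c b (Ne.symm hcb.1) (Ne.symm hcb.2.2),
      hzero a c hca.1 hca.2.1, hzero b c hcb.1 hcb.2.1, mul_zero, add_zero, zero_add] at e1 e2 e3
    intro i
    fin_cases i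
    · exact (mul_eq_zero.1 e1).resolve_right (hne a ha)
    · exact (mul_eq_zero.1 e2).resolve_right (hne b hb)
    · exact (mul_eq_zero.1 e3).resolve_right (hne c hc)
  have h1 := finrank_span_eq_card hli
  have h2 : Submodule.span F (Set.range ![L (ax a), L (ax b), L (ax c)]) ≤
      Submodule.span F {u, w} := by
    rw [Submodule.span_le]
    rintro _ ⟨i, rfl⟩
    fin_cases i <;> exact (hL _).symm ▸ hW _
  have h3 := Submodule.finrank_mono h2
  have h4 : Module.finrank F (Submodule.span F ({u, w} : Set (ι → F))) ≤ 2 := by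
    rw [show ({u, w} : Set (ι → F)) = ↑({u, w} : Finset (ι → F)) by simp]
    exact (finrank_span_finset_le_card _).trans Finset.card_le_two
  rw [h1, Fintype.card_fin] at h3
  omega

end CfsgLib.UnitMono
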