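import Mathlib
import Cfsg.Agent.Classical.UnitMono.Basic

/-!
A homogeneous linear equation in unknowns of norm one with product one, avoiding the axes.
-/

set_option autoImplicit false

namespace CfsgLib.UnitMono

open Matrix CfsgLib.TransvGL CfsgLib.MonoBasics CfsgLib.CircleSums

variable {ι : Type} [Fintype ι] [DecidableEq ι] {F : Type*} [Field F] [Fintype F]
variable {q : ℕ} {σ : F ≃+* F}

local notation "ax" i:max => (Pi.single i (1 : F) : ι → F)

omit [Fintype F] in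
theorem cir_prod {α : Type*} (s : Finset α) (f : α → Fˣ) (h : ∀ i ∈ s, Cir σ (f i : F)) :
    Cir σ ((∏ i ∈ s, f i : Fˣ) : F) := by
  rw [Units.coe_prod]
  exact Finset.prod_induction _ (Cir σ) (fun _ _ => Cir.mul) (cir_one σ) h

omit [Fintype ι] in
/-- Four free positions make a block sum vanish. -/
theorem block_zero (hS : Std q σ) {S P : Finset ι} (hP : P ⊆ S) (hP4 : P.card = 4) {c : ι → F}
    (hc : ∀ i ∈ P, c i ≠ 0) (f : ι → Fˣ) (hf : ∀ i, Cir σ (f i : F)) :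
    ∃ t : ι → Fˣ, (∀ i, Cir σ (t i : F)) ∧ (∀ i ∉ P, t i = f i) ∧ ∑ i ∈ S, (t i : F) * c i = 0 := by
  obtain ⟨a, b, x, y, hab, hax, hay, hbx, hby, hxy, rfl⟩ := Finset.card_eq_four.1 hP4
  obtain ⟨u₁, u₂, u₃, u₄, h₁, h₂, h₃, h₄, h⟩ := four_sum hS.card hS.frob
    (hc a (by simp)) (hc b (by simp)) (hc x (by simp)) (hc y (by simp))
    (-∑ i ∈ S \ {a, b, x, y}, (f i : F) * c i)
  let t : ι → Fˣ := fun i => if i = a then Units.mk0 u₁ h₁.ne_zero else if i = b then Units.mk0 u₂ h₂.ne_zero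
    else if i = x then Units.mk0 u₃ h₃.ne_zero else if i = y then Units.mk0 u₄ h₄.ne_zero else f i
  refine ⟨t, fun i => ?_, fun i hi => ?_, ?_⟩
  · simp only [t]
    split_ifs
    exacts [h₁, h₂, h₃, h₄, hf i]
  · simp only [Finset.mem_insert, Finset.mem_singleton, not_or] at hi
    simp [t, hi.1, hi.2.1, hi.2.2.1, hi.2.2.2]
  · rw [← Finset.sum_sdiff hP]
    have e1 : ∑ i ∈ S \ {a, b, x, y}, (t i : F) * c i = ∑ i ∈ S \ {a, b, x, y}, (f i : F) * c i := by
      refine Finset.sum_congr rfl fun i hi => ?_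
      simp only [Finset.mem_sdiff, Finset.mem_insert, Finset.mem_singleton, not_or] at hi
      simp [t, hi.2.1, hi.2.2.1, hi.2.2.2.1, hi.2.2.2.2]
    rw [e1, Finset.sum_insert (by simp [hab, hax, hay]), Finset.sum_insert (by simp [hbx, hby]),
      Finset.sum_insert (by simp [hxy]), Finset.sum_singleton]
    simp [t, Ne.symm hab, Ne.symm hax, Ne.symm hay, Ne.symm hbx, Ne.symm hby, Ne.symm hxy]
    linear_combination h

/-- Two blocks of coprime size: vanishing sum and product one, prescribed up to a scalar in each. -/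
theorem solve_homog (hS : Std q σ) {c : ι → F} {A P Q : Finset ι}
    (hA : Nat.Coprime A.card (Fintype.card ι)) (hP : P ⊆ A) (hQ : Disjoint Q A)
    (hP4 : P.card = 4) (hQ4 : Q.card = 4) (hcP : ∀ i ∈ P, c i ≠ 0) (hcQ : ∀ i ∈ Q, c i ≠ 0)
    (f : ι → Fˣ) (hf : ∀ i, Cir σ (f i : F)) :
    ∃ t : ι → Fˣ, (∀ i, Cir σ (t i : F)) ∧ ∏ i, t i = 1 ∧ ∑ i, (t i : F) * c i = 0 ∧
      ∃ z w : Fˣ, (∀ i ∈ A, i ∉ P → t i = z * f i) ∧ ∀ i, i ∉ A → i ∉ Q → t i = w * f i := by
  obtain ⟨tA, hAc, hAf, hAs⟩ := block_zero hS hP hP4 hcP f hf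
  obtain ⟨tB, hBc, hBf, hBs⟩ := block_zero hS (S := Aᶜ)
    (fun i hi => Finset.mem_compl.2 (Finset.disjoint_left.1 hQ hi)) hQ4 hcQ f hf
  let t0 : ι → Fˣ := fun i => if i ∈ A then tA i else tB i
  set P0 := ∏ i, t0 i
  have hP0 : Cir σ (P0 : F) := cir_prod _ _ fun i _ => by
    simp only [t0]; split_ifs <;> first | exact hAc i | exact hBc i
  obtain ⟨x, y, hxy⟩ := (Int.isCoprime_iff_nat_coprime.2
    (show Nat.Coprime (A.card : ℤ).natAbs (Fintype.card ι : ℤ).natAbs by simpa using hA))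
  set Z := P0 ^ (-x) with hZ
  set W := P0 ^ (-y) with hW
  have hZc : Cir σ (Z : F) := by rw [hZ, Units.val_zpow_eq_zpow_val]; exact hP0.zpow _
  have hWc : Cir σ (W : F) := by rw [hW, Units.val_zpow_eq_zpow_val]; exact hP0.zpow _
  refine ⟨fun i => (if i ∈ A then Z else 1) * W * t0 i, fun i => ?_, ?_, ?_, Z * W, W, fun i hi hiP => ?_,
    fun i hi hiQ => ?_⟩
  · simp only [t0, Units.val_mul]
    split_ifs
    · exact (hZc.mul hWc).mul (hAc i)
    · exact ((cir_one σ).mul hWc).mul (hBc i)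
  · rw [Finset.prod_mul_distrib, Finset.prod_mul_distrib, Finset.prod_ite_mem, Finset.univ_inter,
      Finset.prod_const, Finset.prod_const, Finset.card_univ, hZ, hW, ← zpow_natCast, ← zpow_natCast,
      ← _root_.zpow_mul, ← _root_.zpow_mul, ← _root_.zpow_add, show -x * (A.card : ℤ) + -y * (Fintype.card ι : ℤ) = -1 by
        linear_combination -hxy, _root_.zpow_neg, zpow_one, inv_mul_cancel]
  · rw [← Finset.sum_add_sum_compl A]
    have e1 : ∀ i ∈ A, (((if i ∈ A then Z else 1) * W * t0 i : Fˣ) : F) * c i =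
        ((Z * W : Fˣ) : F) * ((tA i : F) * c i) := fun i hi => by
      simp only [t0, if_pos hi, Units.val_mul]; ring
    have e2 : ∀ i ∈ Aᶜ, (((if i ∈ A then Z else 1) * W * t0 i : Fˣ) : F) * c i =
        (W : F) * ((tB i : F) * c i) := fun i hi => by
      simp only [t0, if_neg (Finset.mem_compl.1 hi), Units.val_mul, Units.val_one]; ring
    rw [Finset.sum_congr rfl e1, Finset.sum_congr rfl e2, ← Finset.mul_sum, ← Finset.mul_sum, hAs, hBs,
      mul_zero, mul_zero, add_zero]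
  · simp only [t0, if_pos hi, hAf i hiP]
  · simp only [t0, if_neg hi, hBf i hiQ, one_mul]

/-- Many free positions: some solution avoids every axis after applying `g`. -/
theorem exists_off_axis (hS : Std q σ) (g : GL ι F) (v : ι → F) {c : ι → F} {A P Q E : Finset ι}
    (hA : Nat.Coprime A.card (Fintype.card ι)) (hP : P ⊆ A) (hQ : Disjoint Q A)
    (hP4 : P.card = 4) (hQ4 : Q.card = 4) (hcP : ∀ i ∈ P, c i ≠ 0) (hcQ : ∀ i ∈ Q, c i ≠ 0)
    {l₀ l₁ : ι} (hl₀ : l₀ ∈ A ∧ l₀ ∉ P) (hl₁ : l₁ ∉ A ∧ l₁ ∉ Q)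
    (hv₀ : v l₀ ≠ 0) (hv₁ : v l₁ ≠ 0)
    (hE : ∀ i ∈ E, i ∉ P ∧ i ∉ Q ∧ i ≠ l₀ ∧ i ≠ l₁ ∧ v i ≠ 0)
    (hbig : Fintype.card ι < (q + 1) ^ E.card) :
    ∃ t : ι → Fˣ, (∀ i, Cir σ (t i : F)) ∧ ∏ i, t i = 1 ∧ ∑ i, (t i : F) * c i = 0 ∧
      (∀ i ∈ A, i ∉ P → i ∉ E → t i = t l₀) ∧
      ∀ d, (g : Matrix ι ι F) *ᵥ ((dg t : Matrix ι ι F) *ᵥ v) ∉ Submodule.span F {ax d} := by
  classical
  by_contra hno
  push Not at hno
  let C : Finset F := Finset.univ.filter fun z => Cir σ z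
  let Φ := E → C
  let f : Φ → ι → Fˣ := fun φ i =>
    if h : i ∈ E then Units.mk0 (φ ⟨i, h⟩ : F) (Cir.ne_zero (σ := σ) (Finset.mem_filter.1 (φ ⟨i, h⟩).2).2)
    else 1
  have hfc : ∀ φ i, Cir σ (f φ i : F) := fun φ i => by
    simp only [f]
    split_ifs with h
    · exact (Finset.mem_filter.1 (φ ⟨i, h⟩).2).2
    · exact cir_one σ
  choose t htc htp hts z w htA htB using fun φ =>
    solve_homog hS hA hP hQ hP4 hQ4 hcP hcQ (f φ) (hfc φ)
  have hl₀E : l₀ ∉ E := fun h => (hE _ h).2.2.1 rfl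
  have hl₁E : l₁ ∉ E := fun h => (hE _ h).2.2.2.1 rfl
  have ht0 : ∀ φ, t φ l₀ = z φ := fun φ => by
    rw [htA φ _ hl₀.1 hl₀.2]; simp [f, hl₀E]
  have ht1 : ∀ φ, t φ l₁ = w φ := fun φ => by
    rw [htB φ _ hl₁.1 hl₁.2]; simp [f, hl₁E]
  choose d hd using fun φ => hno (t φ) (htc φ) (htp φ) (hts φ) (fun i hi hiP hiE => by
    rw [htA φ _ hi hiP, ht0]; simp [f, hiE])
  choose s hs using fun φ => Submodule.mem_span_singleton.1 (hd φ)
  have hinj : Function.Injective d := by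
    intro φ φ' e
    have hmem : ∀ i, (t φ i : F) * v i * s φ' = (t φ' i : F) * v i * s φ := fun i => by
      have h1 := congrArg (fun y => (((g⁻¹ : GL ι F) : Matrix ι ι F) *ᵥ y) i) (hs φ)
      have h2 := congrArg (fun y => (((g⁻¹ : GL ι F) : Matrix ι ι F) *ᵥ y) i) (hs φ')
      simp only [inv_mulVec_mulVec, mulVec_smul, Pi.smul_apply, smul_eq_mul, dg_mulVec, e] at h1 h2
      rw [← h1, ← h2]; ring
    have hs0 : s φ ≠ 0 := by
      intro h0
      refine mulVec_ne_zero g (mulVec_ne_zero (dg (t φ)) fun hv => hv₀ (congrFun hv l₀)) ?_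
      rw [← hs φ, h0, zero_smul]
    have hz : (z φ : F) * s φ' = z φ' * s φ := by
      have := hmem l₀
      rw [ht0, ht0] at this
      exact mul_right_cancel₀ hv₀ (by linear_combination this)
    have hw : (w φ : F) * s φ' = w φ' * s φ := by
      have := hmem l₁
      rw [ht1, ht1] at this
      exact mul_right_cancel₀ hv₁ (by linear_combination this)
    funext ⟨i, hi⟩
    obtain ⟨hiP, hiQ, -, -, hvi⟩ := hE i hi
    have key := mul_right_cancel₀ hvi (show (t φ i : F) * s φ' * v i = (t φ' i : F) * s φ * v i by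
      linear_combination hmem i)
    have hval : ∀ ψ, (f ψ i : F) = (ψ ⟨i, hi⟩ : F) := fun ψ => by simp [f, hi]
    apply Subtype.ext
    by_cases hiA : i ∈ A
    · rw [htA φ i hiA hiP, htA φ' i hiA hiP, Units.val_mul, Units.val_mul, hval, hval] at key
      exact mul_left_cancel₀ (mul_ne_zero (Units.ne_zero (z φ')) hs0) (by linear_combination key - (φ ⟨i, hi⟩ : F) * hz)
    · rw [htB φ i hiA hiQ, htB φ' i hiA hiQ, Units.val_mul, Units.val_mul, hval, hval] at key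
      exact mul_left_cancel₀ (mul_ne_zero (Units.ne_zero (w φ')) hs0) (by linear_combination key - (φ ⟨i, hi⟩ : F) * hw)
  have h := Fintype.card_le_of_injective d hinj
  rw [Fintype.card_fun, Fintype.card_coe, Fintype.card_coe, show C.card = q + 1 from
    card_cir hS.card hS.frob] at h
  omega

/-- A block size coprime to `n`. -/
theorem exists_coprime_size {n : ℕ} (hn : 13 ≤ n) :
    ∃ a, 6 ≤ a ∧ a + 5 ≤ n ∧ (15 ≤ n → a + 6 ≤ n) ∧ Nat.Coprime a n := by
  rcases Nat.even_or_odd n with ⟨k, rfl⟩ | ⟨k, rfl⟩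
  · rcases Nat.even_or_odd k with ⟨j, rfl⟩ | ⟨j, rfl⟩
    · refine ⟨j + j - 1, by omega, by omega, fun _ => by omega, ?_⟩
      refine Nat.coprime_of_dvd fun p hp h1 h2 => ?_
      have h3 : p ∣ (j + j + (j + j)) - 2 * (j + j - 1) := Nat.dvd_sub h2 (h1.mul_left 2)
      rw [show (j + j + (j + j)) - 2 * (j + j - 1) = 2 by omega] at h3
      rw [(Nat.prime_dvd_prime_iff_eq hp Nat.prime_two).1 h3] at h1
      omega
    · refine ⟨2 * j + 3, by omega, by omega, fun _ => by omega, ?_⟩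
      refine Nat.coprime_of_dvd fun p hp h1 h2 => ?_
      have h3 : p ∣ 2 * (2 * j + 3) - (2 * j + 1 + (2 * j + 1)) := Nat.dvd_sub (h1.mul_left 2) h2
      rw [show 2 * (2 * j + 3) - (2 * j + 1 + (2 * j + 1)) = 2 ^ 2 by omega] at h3
      rw [(Nat.prime_dvd_prime_iff_eq hp Nat.prime_two).1 (hp.dvd_of_dvd_pow h3)] at h1
      omega
  · refine ⟨k, by omega, by omega, fun _ => by omega, ?_⟩
    refine Nat.coprime_of_dvd fun p hp h1 h2 => hp.ne_one (Nat.dvd_one.1 ?_)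
    have := Nat.dvd_sub h2 (h1.mul_left 2)
    rwa [show 2 * k + 1 - 2 * k = 1 by omega] at this

theorem pow_gt {q n e : ℕ} (hq : 2 ≤ q) (he : 3 ≤ e) (hn : n ≤ e + 12) : n < (q + 1) ^ e := by
  have h : ∀ k, 3 ≤ k → k + 12 < 3 ^ k := by
    intro k hk
    induction k, hk using Nat.le_induction with
    | base => norm_num
    | succ k _ ih => rw [pow_succ]; omega
  exact lt_of_lt_of_le (lt_of_le_of_lt hn (h e he)) (Nat.pow_le_pow_left (by omega) _)

end CfsgLib.UnitMono
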