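import Mathlib
import Cfsg.Agent.Classical.UnitMono.Solve

/-!
An overgroup of the special monomial unitary group, larger than it, has a non-monomial element
fixing an axis.
-/

set_option autoImplicit false

namespace CfsgLib.UnitMono

open Matrix CfsgLib.TransvGL CfsgLib.MonoBasics CfsgLib.UnitCentres CfsgLib.PseudoRefl
  CfsgLib.CircleSums

variable {ι : Type} [Fintype ι] [DecidableEq ι] {F : Type*} [Field F] [Fintype F]
variable {q : ℕ} {σ : F ≃+* F} {M : Subgroup (GL ι F)}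

local notation "ax" i:max => (Pi.single i (1 : F) : ι → F)

omit [Fintype F] in
theorem col_apply (g : GL ι F) (a i : ι) :
    ((g : Matrix ι ι F) *ᵥ (Pi.single a (1 : F))) i = (g : Matrix ι ι F) i a := by
  rw [Matrix.mulVec_single_one]; rfl

variable (hO : Over q σ M) (hn : 13 ≤ Fintype.card ι)
  (hU : ∀ h : GL ι F, h ∈ M → ∀ a : ι,
    (h : Matrix ι ι F) *ᵥ (Pi.single a (1 : F) : ι → F) ∈
      Submodule.span F {(Pi.single a (1 : F) : ι → F)} → IsMono h)
include hO hn hU

theorem fix_mono {h : GL ι F} (hh : h ∈ M) {a b : ι}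
    (hab : (h : Matrix ι ι F) *ᵥ ax a ∈ Submodule.span F {ax b}) : IsMono h := by
  obtain ⟨p, hp, s, -, hpj⟩ := hO.exists_perm (Equiv.swap a b) a
  have hpm : IsMono p := fun j => ⟨Equiv.swap a b j, Submodule.mem_span_singleton.2 ⟨_, (hpj j).symm⟩⟩
  have h1 : IsMono (p * h) := by
    refine hU _ (M.mul_mem hp hh) a ?_
    obtain ⟨c, hc⟩ := Submodule.mem_span_singleton.1 hab
    rw [Units.val_mul, ← mulVec_mulVec, ← hc, mulVec_smul, hpj, Equiv.swap_apply_right]
    exact Submodule.smul_mem _ _ (Submodule.smul_mem _ _ (Submodule.mem_span_singleton_self _))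
  have := hpm.inv.mul h1
  rwa [inv_mul_cancel_left] at this

theorem few_zeros {g : GL ι F} (hg : g ∈ M) (hgm : ¬ IsMono g) (a : ι) {C : Finset ι}
    (hC : ∀ p ∈ C, ((g : Matrix ι ι F) *ᵥ ax a) p = 0) : C.card ≤ 3 := by
  classical
  by_contra hcard
  push Not at hcard
  obtain ⟨ε0, hε0, hε2⟩ := exists_cir_sq_ne_one hO.std.card hO.std.frob
  set ε : Fˣ := Units.mk0 ε0 hε0.ne_zero
  have hεc : Cir σ (ε : F) := hε0
  have hε1 : (ε : F) ≠ 1 := fun e => hε2 (by rw [show ε0 = 1 from e, one_pow])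
  have hεi : (ε : F) - (ε : F)⁻¹ ≠ 0 := fun e => hε2 (by
    show (ε : F) ^ 2 = 1
    have h0 := hεc.ne_zero
    field_simp at e
    linear_combination e)
  obtain ⟨p, hp⟩ : C.Nonempty := Finset.card_pos.1 (by omega)
  obtain ⟨b, hb⟩ : ∃ b, ((g : Matrix ι ι F) *ᵥ ax b) p ≠ 0 := by
    by_contra hno
    push Not at hno
    refine (ax_ne_zero (F := F) p) ?_
    have h1 : ((g⁻¹ : GL ι F) : Matrix ι ι F) *ᵥ ax p = 0 := funext fun j => by
      rw [inv_apply_eq (hO.iso g hg), sf_ax_left, hno, map_zero]; rfl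
    rw [← mulVec_inv_mulVec g (ax p), h1, mulVec_zero]
  set w := (g : Matrix ι ι F) *ᵥ ax b with hw
  have hww : sf σ w w = 1 := by rw [hw, hO.iso g hg, sf_ax_self]
  set N : ι → F := fun i => w i * σ (w i) with hN
  -- a torus element supported on the zeros either fixes the column or makes it orthogonal to itself
  have horth : ∀ t : ι → Fˣ, (∀ i, Cir σ (t i : F)) → ∏ i, t i = 1 → (∀ i ∉ C, t i = 1) →
      (∃ i, w i ≠ 0 ∧ t i ≠ t p) → sf σ ((dg t : Matrix ι ι F) *ᵥ w) w = 0 := by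
    intro t htc htp htC hne
    have hxM : g⁻¹ * dg t * g ∈ M :=
      M.mul_mem (M.mul_mem (M.inv_mem hg) (hO.dg_mem htc htp)) hg
    have hxm : IsMono (g⁻¹ * dg t * g) := by
      refine hU _ hxM a ?_
      have e : (dg t : Matrix ι ι F) *ᵥ ((g : Matrix ι ι F) *ᵥ ax a) = (g : Matrix ι ι F) *ᵥ ax a :=
        funext fun i => by
          rw [dg_mulVec]
          by_cases hi : i ∈ C
          · rw [hC i hi, mul_zero]
          · rw [htC i hi, Units.val_one, one_mul]
      rw [Units.val_mul, Units.val_mul, ← mulVec_mulVec, ← mulVec_mulVec, e, inv_mulVec_mulVec]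
      exact Submodule.mem_span_singleton_self _
    obtain ⟨b', hb'⟩ := hxm b
    obtain ⟨c, hc⟩ := Submodule.mem_span_singleton.1 hb'
    have e : (dg t : Matrix ι ι F) *ᵥ w = c • ((g : Matrix ι ι F) *ᵥ ax b') := by
      rw [← mulVec_smul, hc, Units.val_mul, Units.val_mul, ← mulVec_mulVec, ← mulVec_mulVec,
        mulVec_inv_mulVec]
    rw [e]
    by_cases hbb : b' = b
    · exfalso
      subst hbb
      obtain ⟨i, hwi, hti⟩ := hne
      have h1 := congrFun e p
      have h2 := congrFun e i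
      rw [dg_mulVec, Pi.smul_apply, smul_eq_mul] at h1 h2
      exact hti (Units.ext ((mul_right_cancel₀ hwi h2).trans (mul_right_cancel₀ hb h1).symm))
    · rw [hO.std.isUnitary.smul_left, hw, hO.iso g hg, sf_ax_right]
      simp [Ne.symm hbb]
  obtain ⟨l, hlp, hwl⟩ : ∃ l, l ≠ p ∧ w l ≠ 0 := by
    by_contra hno
    push Not at hno
    exact hgm (fix_mono hO hn hU hg (a := b) (b := p) (mem_axis_iff.2 hno))
  have expand : ∀ t : ι → Fˣ, sf σ ((dg t : Matrix ι ι F) *ᵥ w) w =
      1 + ∑ i, ((t i : F) - 1) * N i := by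
    intro t
    rw [show (1 : F) + ∑ i, ((t i : F) - 1) * N i = sf σ w w + ∑ i, ((t i : F) - 1) * N i by rw [hww]]
    simp only [sf, dg_mulVec, hN]
    rw [← Finset.sum_add_distrib]
    exact Finset.sum_congr rfl fun i _ => by ring
  have hpair : ∀ {x y : ι} (δ : Fˣ), x ≠ y →
      ∑ i, ((torPair x y δ i : F) - 1) * N i = ((δ : F) - 1) * N x + ((δ : F)⁻¹ - 1) * N y := by
    intro x y δ hxy
    rw [Fintype.sum_eq_add x y hxy fun i hi => by simp [torPair, hi.1, hi.2]]
    simp [torPair, Ne.symm hxy]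
  have eqn : ∀ r ∈ C, r ≠ p → 1 + ((ε : F) - 1) * N p + ((ε : F)⁻¹ - 1) * N r = 0 ∧
      1 + ((ε : F)⁻¹ - 1) * N p + ((ε : F) - 1) * N r = 0 := by
    intro r hr hrp
    have key : ∀ δ : Fˣ, Cir σ (δ : F) → (δ : F) ^ 2 ≠ 1 →
        1 + ((δ : F) - 1) * N p + ((δ : F)⁻¹ - 1) * N r = 0 := by
      intro δ hδ hδ2
      rw [add_assoc, ← hpair δ (Ne.symm hrp), ← expand]
      refine horth _ (fun i => ?_) (prod_torPair (Ne.symm hrp) δ) (fun i hi => ?_) ⟨l, hwl, ?_⟩
      · unfold torPair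
        split_ifs
        · exact hδ
        · rw [Units.val_inv_eq_inv_val]; exact hδ.inv
        · exact cir_one σ
      · have : i ≠ p ∧ i ≠ r := ⟨fun e => hi (e ▸ hp), fun e => hi (e ▸ hr)⟩
        simp [torPair, this.1, this.2]
      · intro e
        rw [show torPair p r δ p = δ by simp [torPair]] at e
        by_cases hlr : l = r
        · rw [hlr, show torPair p r δ r = δ⁻¹ by simp [torPair, hrp]] at e
          refine hδ2 ?_
          have h2 := congrArg (fun z : Fˣ => (z : F) * δ) e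
          simpa [sq] using h2.symm
        · rw [show torPair p r δ l = 1 by simp [torPair, hlp, hlr]] at e
          exact hδ2 (by rw [← e]; simp)
    refine ⟨key ε hεc hε2, ?_⟩
    have := key ε⁻¹ (by rw [Units.val_inv_eq_inv_val]; exact hεc.inv) (by
      rw [Units.val_inv_eq_inv_val, inv_pow]
      exact fun e => hε2 (inv_eq_one.1 e))
    simpa using this
  have hNr : ∀ r ∈ C, N r = N p := by
    intro r hr
    by_cases hrp : r = p
    · rw [hrp]
    obtain ⟨e1, e2⟩ := eqn r hr hrp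
    refine mul_left_cancel₀ hεi ?_
    linear_combination e2 - e1
  obtain ⟨r, hr, hrp⟩ := Finset.exists_mem_ne (s := C) (by omega) p
  obtain ⟨r', hr', hr'n⟩ := Finset.exists_mem_notMem_of_card_lt_card (s := ({p, r} : Finset ι)) (t := C)
    (Finset.card_le_two.trans_lt (by omega))
  obtain ⟨r'', hr'', hr''n⟩ := Finset.exists_mem_notMem_of_card_lt_card (s := ({p, r, r'} : Finset ι)) (t := C)
    (Finset.card_le_three.trans_lt (by omega))
  simp only [Finset.mem_insert, Finset.mem_singleton, not_or] at hr'n hr''n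
  set t : ι → Fˣ := fun i => torPair p r ε i * torPair r' r'' ε i with ht
  have hq4 := horth t (fun i => by
      simp only [ht, Units.val_mul]
      refine Cir.mul ?_ ?_ <;>
      · unfold torPair
        split_ifs
        · exact hεc
        · rw [Units.val_inv_eq_inv_val]; exact hεc.inv
        · exact cir_one σ)
    (by simp only [ht]; rw [Finset.prod_mul_distrib, prod_torPair (Ne.symm hrp),
      prod_torPair (Ne.symm hr''n.2.2), one_mul])
    (fun i hi => by
      have : i ≠ p ∧ i ≠ r ∧ i ≠ r' ∧ i ≠ r'' := ⟨fun e => hi (e ▸ hp), fun e => hi (e ▸ hr),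
        fun e => hi (e ▸ hr'), fun e => hi (e ▸ hr'')⟩
      simp [ht, torPair, this.1, this.2.1, this.2.2.1, this.2.2.2])
    ⟨r, fun e => by
      have h0 := (eqn r hr hrp).1
      have h1 : N p = 0 := by rw [← hNr r hr, hN]; simp [e]
      rw [hNr r hr, h1] at h0
      simp at h0, by
      simp only [ht, torPair, if_pos rfl, if_neg hrp, if_neg (Ne.symm hr'n.1), if_neg (Ne.symm hr''n.1),
        if_neg (Ne.symm hr'n.2), if_neg (Ne.symm hr''n.2.1), mul_one]
      intro e
      refine hεi ?_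
      have := congrArg (fun z : Fˣ => (z : F)) e
      simp at this
      linear_combination -this⟩
  rw [expand] at hq4
  have hsum : ∑ i, ((t i : F) - 1) * N i =
      ∑ i, ((torPair p r ε i : F) - 1) * N i + ∑ i, ((torPair r' r'' ε i : F) - 1) * N i := by
    rw [← Finset.sum_add_distrib]
    refine Finset.sum_congr rfl fun i _ => ?_
    simp only [ht, Units.val_mul]
    have : torPair p r ε i = 1 ∨ torPair r' r'' ε i = 1 := by
      by_cases hi : i = p ∨ i = r
      · right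
        rcases hi with rfl | rfl
        · simp [torPair, Ne.symm hr'n.1, Ne.symm hr''n.1]
        · simp [torPair, Ne.symm hr'n.2, Ne.symm hr''n.2.1]
      · left
        push Not at hi
        simp [torPair, hi.1, hi.2]
    rcases this with h | h <;> rw [h, Units.val_one] <;> ring
  rw [hsum, hpair ε (Ne.symm hrp), hpair ε (Ne.symm hr''n.2.2), hNr r hr, hNr r' hr', hNr r'' hr''] at hq4
  have e1 := (eqn r hr hrp).1
  rw [hNr r hr] at e1
  exact one_ne_zero (show (1 : F) = 0 by linear_combination 2 * e1 - hq4)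

theorem plane_absurd {g : GL ι F} (hg : g ∈ M) (hgm : ¬ IsMono g) {x : GL ι F} (hx : IsMono x)
    {e e' : ι → F} (hW : ∀ y, (x : Matrix ι ι F) *ᵥ y - y ∈
      Submodule.span F {((g⁻¹ : GL ι F) : Matrix ι ι F) *ᵥ e, e'})
    (k : ι) {c : F} (hc : c ≠ 0) {y₀ : ι → F}
    (hv : (x : Matrix ι ι F) *ᵥ y₀ - y₀ = c • (((g⁻¹ : GL ι F) : Matrix ι ι F) *ᵥ ax k)) : False := by
  classical
  set u := ((g⁻¹ : GL ι F) : Matrix ι ι F) *ᵥ ax k with hu
  have h1 := card_supp_le_six hx hW hv (S := Finset.univ.filter fun i => u i ≠ 0) fun i hi => by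
    rw [Pi.smul_apply, smul_eq_mul]
    exact mul_ne_zero hc (Finset.mem_filter.1 hi).2
  have h2 := few_zeros hO hn hU (M.inv_mem hg) (fun h => hgm (by simpa using h.inv)) k
    (C := Finset.univ.filter fun i => ¬ u i ≠ 0) fun i hi => not_not.1 (Finset.mem_filter.1 hi).2
  have h3 := Finset.card_filter_add_card_filter_not (s := (Finset.univ : Finset ι))
    (fun i => u i ≠ 0)
  rw [Finset.card_univ] at h3
  omega

theorem one_zero {g : GL ι F} (hg : g ∈ M) (hgm : ¬ IsMono g) {a k k' : ι} (hkk : k ≠ k')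
    (hk : ((g : Matrix ι ι F) *ᵥ ax a) k = 0) (hk' : ((g : Matrix ι ι F) *ᵥ ax a) k' = 0) :
    False := by
  obtain ⟨ε0, hε0, hε2⟩ := exists_cir_sq_ne_one hO.std.card hO.std.frob
  set ε : Fˣ := Units.mk0 ε0 hε0.ne_zero
  set d := dg (torPair k k' ε) with hd
  have hdy : ∀ y, (d : Matrix ι ι F) *ᵥ y =
      y + (((ε : F) - 1) * y k) • ax k + (((ε : F)⁻¹ - 1) * y k') • ax k' := fun y => funext fun i => by
    rw [hd, dg_mulVec]
    rcases eq_or_ne i k with rfl | hik
    · simp [torPair, hkk]; ring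
    rcases eq_or_ne i k' with rfl | hik'
    · simp [torPair, Ne.symm hkk]; ring
    · simp [torPair, hik, hik']
  have hxy : ∀ y, ((g⁻¹ * d * g : GL ι F) : Matrix ι ι F) *ᵥ y - y =
      (((ε : F) - 1) * ((g : Matrix ι ι F) *ᵥ y) k) • (((g⁻¹ : GL ι F) : Matrix ι ι F) *ᵥ ax k) +
      (((ε : F)⁻¹ - 1) * ((g : Matrix ι ι F) *ᵥ y) k') • (((g⁻¹ : GL ι F) : Matrix ι ι F) *ᵥ ax k') :=
    fun y => by
      rw [Units.val_mul, Units.val_mul, ← mulVec_mulVec, ← mulVec_mulVec, hdy, mulVec_add, mulVec_add,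
        inv_mulVec_mulVec, mulVec_smul, mulVec_smul]
      abel
  have hxm : IsMono (g⁻¹ * d * g) := by
    refine hU _ (M.mul_mem (M.mul_mem (M.inv_mem hg) (hO.torPair_mem hkk hε0)) hg) a ?_
    have := hxy (ax a)
    rw [hk, hk', mul_zero, mul_zero, zero_smul, zero_smul, add_zero, sub_eq_zero] at this
    rw [this]
    exact Submodule.mem_span_singleton_self _
  refine plane_absurd hO hn hU hg hgm hxm (e := ax k)
    (e' := ((g⁻¹ : GL ι F) : Matrix ι ι F) *ᵥ ax k') (fun y => hxy y ▸ ?_) k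
    (c := (ε : F) - 1) ?_ (y₀ := ((g⁻¹ : GL ι F) : Matrix ι ι F) *ᵥ ax k) ?_
  · exact Submodule.add_mem _ (Submodule.smul_mem _ _ (Submodule.subset_span (Or.inl rfl)))
      (Submodule.smul_mem _ _ (Submodule.subset_span (Or.inr rfl)))
  · exact sub_ne_zero.2 fun e => hε2 (by rw [show ε0 = 1 from e, one_pow])
  · rw [hxy, mulVec_inv_mulVec]
    simp [Ne.symm hkk]

theorem exists_zero {g₀ : GL ι F} (hg₀ : g₀ ∈ M) (hgm : ¬ IsMono g₀) :
    ∃ g ∈ M, ¬ IsMono g ∧ ∃ a k, ((g : Matrix ι ι F) *ᵥ ax a) k = 0 := by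
  classical
  by_contra hno
  push Not at hno
  obtain ⟨a0⟩ : Nonempty ι := Fintype.card_pos_iff.1 (by omega)
  set v := (g₀ : Matrix ι ι F) *ᵥ ax a0 with hv
  have hv0 : ∀ i, v i ≠ 0 := hno g₀ hg₀ hgm a0
  set c : ι → F := fun i => (g₀ : Matrix ι ι F) a0 i * v i with hc
  have hc0 : ∀ i, c i ≠ 0 := fun i => mul_ne_zero (by rw [← col_apply]; exact hno g₀ hg₀ hgm i a0) (hv0 i)
  obtain ⟨s, hs6, hsn, -, hsco⟩ := exists_coprime_size hn
  obtain ⟨A, -, hAc⟩ := Finset.exists_subset_card_eq (s := (Finset.univ : Finset ι)) (n := s)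
    (by rw [Finset.card_univ]; omega)
  obtain ⟨P, hPA, hP4⟩ := Finset.exists_subset_card_eq (s := A) (n := 4) (by omega)
  obtain ⟨Q, hQA, hQ4⟩ := Finset.exists_subset_card_eq (s := Aᶜ) (n := 4) (by
    rw [Finset.card_compl]; omega)
  obtain ⟨l₀, hl₀, hl₀'⟩ := Finset.exists_mem_notMem_of_card_lt_card (s := P) (t := A) (by omega)
  obtain ⟨l₁, hl₁, hl₁'⟩ := Finset.exists_mem_notMem_of_card_lt_card (s := Q) (t := Aᶜ) (by
    rw [Finset.card_compl]; omega)
  obtain ⟨t, htc, htp, hts, -, htax⟩ := exists_off_axis hO.std g₀ v (c := c) (A := A) (P := P) (Q := Q)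
    (E := Finset.univ \ (P ∪ Q ∪ {l₀, l₁})) (hAc ▸ hsco) hPA
    (Finset.disjoint_left.2 fun i hi => Finset.mem_compl.1 (hQA hi)) hP4 hQ4
    (fun i _ => hc0 i) (fun i _ => hc0 i) ⟨hl₀, hl₀'⟩ ⟨Finset.mem_compl.1 hl₁, hl₁'⟩ (hv0 _) (hv0 _)
    (fun i hi => by
      simp only [Finset.mem_sdiff, Finset.mem_union, Finset.mem_insert, Finset.mem_singleton, not_or] at hi
      exact ⟨hi.2.1.1, hi.2.1.2, hi.2.2.1, hi.2.2.2, hv0 i⟩)
    (by
      have h1 := Finset.card_union_le (P ∪ Q) {l₀, l₁}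
      have h2 := Finset.card_union_le P Q
      have h3 := Finset.card_le_two (a := l₀) (b := l₁)
      have h4 := Finset.le_card_sdiff (P ∪ Q ∪ {l₀, l₁}) (Finset.univ : Finset ι)
      rw [Finset.card_univ] at h4
      exact pow_gt hO.std.two_le (by omega) (by omega))
  set g := g₀ * dg t * g₀ with hg
  have hgM : g ∈ M := M.mul_mem (M.mul_mem hg₀ (hO.dg_mem htc htp)) hg₀
  have hcol : (g : Matrix ι ι F) *ᵥ ax a0 = (g₀ : Matrix ι ι F) *ᵥ ((dg t : Matrix ι ι F) *ᵥ v) := by
    rw [hg, Units.val_mul, Units.val_mul, ← mulVec_mulVec, ← mulVec_mulVec]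
  refine hno g hgM (fun hm => ?_) a0 a0 ?_
  · obtain ⟨d, hd⟩ := hm a0
    exact htax d (hcol ▸ hd)
  · rw [hcol, ← hts]
    simp only [mulVec, dotProduct]
    refine Finset.sum_congr rfl fun i _ => ?_
    have := dg_mulVec t v i
    simp only [mulVec, dotProduct] at this
    rw [this, hc]
    ring

omit hn hU in
theorem scalar_conj_mem {g : GL ι F} (hg : g ∈ M) {ε : Fˣ} (hε : Cir σ (ε : F)) (k : ι) :
    uRefl hO.std (sf_ax_self k) (ε ^ Fintype.card ι) * g *
      (uRefl hO.std (sf_ax_self k) (ε ^ Fintype.card ι))⁻¹ ∈ M := by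
  set δ := ε ^ Fintype.card ι with hδ
  set h := dg fun i => ε⁻¹ * (if i = k then δ else 1) with hh
  have hhM : h ∈ M := by
    refine hO.dg_mem (fun i => ?_) ?_
    · rw [Units.val_mul, Units.val_inv_eq_inv_val]
      refine hε.inv.mul ?_
      split_ifs
      · rw [hδ, Units.val_pow_eq_pow_val, ← zpow_natCast]; exact hε.zpow _
      · exact cir_one σ
    · rw [Finset.prod_mul_distrib, Finset.prod_const, Finset.card_univ,
        Finset.prod_ite_eq' Finset.univ k, if_pos (Finset.mem_univ k), hδ, inv_pow, inv_mul_cancel]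
  have e : uRefl hO.std (sf_ax_self k) δ * g * (uRefl hO.std (sf_ax_self k) δ)⁻¹ = h * g * h⁻¹ := by
    rw [eq_comm, mul_inv_eq_iff_eq_mul]
    refine ext_mulVec fun x => ?_
    have hhx : ∀ y, (h : Matrix ι ι F) *ᵥ y =
        (ε : F)⁻¹ • ((uRefl hO.std (sf_ax_self k) δ : Matrix ι ι F) *ᵥ y) := fun y => funext fun i => by
      rw [hh, dg_mulVec, Pi.smul_apply, uRefl_ax_mulVec, smul_eq_mul, Units.val_mul,
        Units.val_inv_eq_inv_val, apply_ite (Units.val), Units.val_one]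
      ring
    simp only [Units.val_mul, ← mulVec_mulVec, hhx, mulVec_smul, inv_mulVec_mulVec]
  rw [e]
  exact M.mul_mem (M.mul_mem hhM hg) (M.inv_mem hhM)

theorem case_scalar {ε : Fˣ} (hε : Cir σ (ε : F)) (hne : ε ^ Fintype.card ι ≠ 1) {g : GL ι F}
    (hg : g ∈ M) (hgm : ¬ IsMono g) {a k : ι} (hk : ((g : Matrix ι ι F) *ᵥ ax a) k = 0) : False := by
  classical
  set δ := ε ^ Fintype.card ι with hδ
  have hδc : Cir σ (δ : F) := by
    rw [hδ, Units.val_pow_eq_pow_val, ← zpow_natCast]; exact hε.zpow _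
  set R := uRefl hO.std (sf_ax_self (σ := σ) k) δ with hR
  set Ra := uRefl hO.std (sf_ax_self (σ := σ) a) δ⁻¹ with hRa
  have hRR : R * Ra ∈ M := by
    rw [hR, hRa, uRefl_ax_eq_dg, uRefl_ax_eq_dg,
      show ∀ f₁ f₂ : ι → Fˣ, dg f₁ * dg f₂ = dg fun i => f₁ i * f₂ i from fun f₁ f₂ =>
        ext_mulVec fun x => funext fun i => by
          rw [Units.val_mul, ← mulVec_mulVec, dg_mulVec, dg_mulVec, dg_mulVec, Units.val_mul]; ring]
    refine hO.dg_mem (fun i => ?_) ?_
    · rw [Units.val_mul]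
      refine Cir.mul ?_ ?_
      · split_ifs
        exacts [hδc, cir_one σ]
      · split_ifs
        · rw [Units.val_inv_eq_inv_val]; exact hδc.inv
        · exact cir_one σ
    · rw [Finset.prod_mul_distrib, Finset.prod_ite_eq' Finset.univ k,
        Finset.prod_ite_eq' Finset.univ a, if_pos (Finset.mem_univ k), if_pos (Finset.mem_univ a),
        mul_inv_cancel]
  have hxM : g⁻¹ * R * g * Ra ∈ M := by
    have := M.mul_mem (M.mul_mem (M.inv_mem hg) (scalar_conj_mem hO hg hε k)) hRR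
    rwa [show g⁻¹ * (R * g * R⁻¹) * (R * Ra) = g⁻¹ * R * g * Ra by group] at this
  have hRfix : ((g⁻¹ * R * g : GL ι F) : Matrix ι ι F) *ᵥ ax a = ax a := by
    rw [Units.val_mul, Units.val_mul, ← mulVec_mulVec, ← mulVec_mulVec, hR, uRefl_mulVec, sf_ax_right,
      hk, mul_zero, zero_smul, add_zero, inv_mulVec_mulVec]
  have hxm : IsMono (g⁻¹ * R * g * Ra) := by
    refine hU _ hxM a ?_
    rw [Units.val_mul, ← mulVec_mulVec, hRa, uRefl_mulVec, sf_ax_self, mul_one, mulVec_add, mulVec_smul,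
      hRfix]
    exact Submodule.add_mem _ (Submodule.mem_span_singleton_self _)
      (Submodule.smul_mem _ _ (Submodule.mem_span_singleton_self _))
  have hRam : IsMono Ra := by rw [hRa, uRefl_ax_eq_dg]; exact isMono_dg _
  have hym : IsMono (g⁻¹ * R * g) := by
    have := hxm.mul hRam.inv
    rwa [mul_inv_cancel_right] at this
  have hxy : ∀ y, ((g⁻¹ * R * g : GL ι F) : Matrix ι ι F) *ᵥ y - y =
      (((δ : F) - 1) * ((g : Matrix ι ι F) *ᵥ y) k) • (((g⁻¹ : GL ι F) : Matrix ι ι F) *ᵥ ax k) :=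
    fun y => by
      rw [Units.val_mul, Units.val_mul, ← mulVec_mulVec, ← mulVec_mulVec, hR, uRefl_mulVec, sf_ax_right,
        mulVec_add, inv_mulVec_mulVec, mulVec_smul, add_sub_cancel_left]
  refine plane_absurd hO hn hU hg hgm hym (e := ax k) (e' := 0) (fun y => hxy y ▸ ?_) k
    (c := (δ : F) - 1) ?_ (y₀ := ((g⁻¹ : GL ι F) : Matrix ι ι F) *ᵥ ax k) ?_
  · exact Submodule.smul_mem _ _ (Submodule.subset_span (Or.inl rfl))
  · exact sub_ne_zero.2 fun e => hne (Units.ext e)
  · rw [hxy, mulVec_inv_mulVec]; simp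

omit hO hn hU in
/-- Two coordinates of equal norm are exchanged by a monomial isometry fixing the vector. -/
theorem swap_formula {l m : ι} (hlm : l ≠ m) (s : Fˣ) (x : ι → F) :
    (monoGL (Equiv.swap l m) (fun i => if i = l then s else if i = m then s⁻¹ else 1) :
        Matrix ι ι F) *ᵥ x =
      x - (x l - (s : F)⁻¹ * x m) • (ax l - (s : F) • ax m) := by
  funext i
  rw [monoGL_mulVec, Equiv.symm_swap]
  rcases eq_or_ne i l with rfl | hil
  · simp [hlm, Ne.symm hlm]
  rcases eq_or_ne i m with rfl | him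
  · simp [hlm, Ne.symm hlm]
    field_simp
    ring
  · rw [Equiv.swap_apply_of_ne_of_ne hil him]
    simp [hil, him]

omit hn hU in
/-- Pigeonhole on the norms. -/
theorem exists_equal_norms {v : ι → F} {S : Finset ι} (hv : ∀ i ∈ S, v i ≠ 0) (hS : q ≤ S.card) :
    ∃ l ∈ S, ∃ m ∈ S, l ≠ m ∧ v l * σ (v l) = v m * σ (v m) := by
  classical
  refine Finset.exists_ne_map_eq_of_card_lt_of_maps_to
    (t := (Finset.univ.filter fun z : F => σ z = z).erase 0) ?_ fun i hi => ?_
  · rw [Finset.card_erase_of_mem (by simp), card_fixed hO.std.card hO.std.frob]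
    have := hO.std.two_le
    omega
  · simp only [Finset.coe_erase, Set.mem_diff, Set.mem_singleton_iff, Finset.coe_filter,
      Finset.mem_univ, true_and, Set.mem_setOf_eq]
    exact ⟨norm_fixed hO.std.card hO.std.frob _, mul_ne_zero (hv i hi) (by simpa using hv i hi)⟩

theorem case_odd (h2 : (2 : F) ≠ 0) (hq : q + 1 ≤ Fintype.card ι) {g : GL ι F}
    (hg : g ∈ M) (hgm : ¬ IsMono g) {a k : ι} (hk : ((g : Matrix ι ι F) *ᵥ ax a) k = 0) : False := by
  classical
  set v := (g : Matrix ι ι F) *ᵥ ax a with hv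
  obtain ⟨l, hl, m, hm, hlm, hN⟩ := exists_equal_norms hO (v := v) (S := Finset.univ.erase k)
    (fun i hi e => one_zero hO hn hU hg hgm (Finset.ne_of_mem_erase hi) e hk)
    (by rw [Finset.card_erase_of_mem (Finset.mem_univ k), Finset.card_univ]; omega)
  have hlk := Finset.ne_of_mem_erase hl
  have hmk := Finset.ne_of_mem_erase hm
  have hvl : v l ≠ 0 := fun e => one_zero hO hn hU hg hgm hlk e hk
  have hvm : v m ≠ 0 := fun e => one_zero hO hn hU hg hgm hmk e hk
  set s : Fˣ := Units.mk0 (v m / v l) (div_ne_zero hvm hvl) with hs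
  have hsc : Cir σ (s : F) := by
    show v m / v l * σ (v m / v l) = 1
    have : σ (v l) ≠ 0 := by simpa using hvl
    rw [map_div₀, div_mul_div_comm, ← hN, div_self (mul_ne_zero hvl this)]
  set S0 := monoGL (Equiv.swap l m) (fun i => if i = l then s else if i = m then s⁻¹ else 1) with hS0
  set χ : Module.Dual F (ι → F) :=
    (2 : F)⁻¹ • (LinearMap.proj l - (s : F)⁻¹ • LinearMap.proj m) with hχ
  have hχy : χ (ax l - (s : F) • ax m) = 1 := by
    have := s.ne_zero
    simp [hχ, hlm, Ne.symm hlm]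
    field_simp
    ring
  have hS0eq : S0 = refl χ hχy (-1) := ext_mulVec fun x => by
    rw [hS0, swap_formula hlm, refl_mulVec, sub_eq_add_neg, ← neg_smul]
    congr 2
    simp [hχ]
    field_simp
    ring
  set Rk := uRefl hO.std (sf_ax_self (σ := σ) k) (-1) with hRk
  set h := S0 * Rk with hh
  have hci : ∀ i, Cir σ (((fun i => if i = l then s else if i = m then s⁻¹ else 1) i : Fˣ) : F) := by
    intro i
    simp only
    split_ifs
    · exact hsc
    · rw [Units.val_inv_eq_inv_val]; exact hsc.inv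
    · exact cir_one σ
  have hneg : Cir σ (((-1 : Fˣ)) : F) := by rw [Units.val_neg, Units.val_one]; exact cir_neg_one σ
  have hhM : h ∈ M := by
    refine hO.mono_mem _ ((iso_monoGL _ _ hci).mul (uRefl_iso _ _ hneg)) ?_
      ((isMono_monoGL _ _).mul (by rw [hRk, uRefl_ax_eq_dg]; exact isMono_dg _))
    rw [PseudoRefl.mem_specialLinear_iff, Units.val_mul, det_mul, hRk, det_uRefl, hS0eq, det_refl]
    simp
  have hhy : ∀ y, (h : Matrix ι ι F) *ᵥ y - y =
      (-(y l - (s : F)⁻¹ * y m)) • (ax l - (s : F) • ax m) + (-2 * y k) • ax k := fun y => by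
    have eR : (Rk : Matrix ι ι F) *ᵥ y = y + (-2 * y k) • ax k := by
      rw [hRk, uRefl_mulVec, sf_ax_right, Units.val_neg, Units.val_one]
      congr 2; ring
    rw [hh, Units.val_mul, ← mulVec_mulVec, eR, hS0, swap_formula hlm]
    simp only [Pi.add_apply, Pi.smul_apply, Pi.single_eq_of_ne hlk, Pi.single_eq_of_ne hmk, smul_eq_mul,
      mul_zero, add_zero]
    module
  have hfix : (h : Matrix ι ι F) *ᵥ v = v := by
    have := hhy v
    rw [hk, mul_zero, zero_smul, add_zero,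
      show v l - (s : F)⁻¹ * v m = 0 by rw [hs, Units.val_mk0]; field_simp; ring,
      neg_zero, zero_smul, sub_eq_zero] at this
    exact this
  have hxm : IsMono (g⁻¹ * h * g) := by
    refine hU _ (M.mul_mem (M.mul_mem (M.inv_mem hg) hhM) hg) a ?_
    rw [Units.val_mul, Units.val_mul, ← mulVec_mulVec, ← mulVec_mulVec, ← hv, hfix, hv, inv_mulVec_mulVec]
    exact Submodule.mem_span_singleton_self _
  have hxy : ∀ y, ((g⁻¹ * h * g : GL ι F) : Matrix ι ι F) *ᵥ y - y =
      ((g⁻¹ : GL ι F) : Matrix ι ι F) *ᵥ ((h : Matrix ι ι F) *ᵥ ((g : Matrix ι ι F) *ᵥ y) -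
        (g : Matrix ι ι F) *ᵥ y) := fun y => by
    rw [Units.val_mul, Units.val_mul, ← mulVec_mulVec, ← mulVec_mulVec, mulVec_sub, inv_mulVec_mulVec]
  refine plane_absurd hO hn hU hg hgm hxm (e := ax k)
    (e' := ((g⁻¹ : GL ι F) : Matrix ι ι F) *ᵥ (ax l - (s : F) • ax m)) (fun y => ?_) k
    (c := -2) (neg_ne_zero.2 h2) (y₀ := ((g⁻¹ : GL ι F) : Matrix ι ι F) *ᵥ ax k) ?_
  · rw [hxy, hhy, mulVec_add, mulVec_smul, mulVec_smul]
    exact Submodule.add_mem _ (Submodule.smul_mem _ _ (Submodule.subset_span (Or.inr rfl)))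
      (Submodule.smul_mem _ _ (Submodule.subset_span (Or.inl rfl)))
  · rw [hxy, mulVec_inv_mulVec, hhy]
    rw [Pi.single_eq_of_ne hlk, Pi.single_eq_of_ne hmk, Pi.single_eq_same, mul_zero, sub_zero, neg_zero,
      zero_smul, zero_add, mul_one, mulVec_smul]

end CfsgLib.UnitMono
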