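import Mathlib
import Cfsg.Agent.Classical.UnitMono.Fix

/-!
The characteristic two case, and the conclusion: some non-monomial element fixes an axis.
-/

set_option autoImplicit false

namespace CfsgLib.UnitMono

open Matrix CfsgLib.TransvGL CfsgLib.MonoBasics CfsgLib.UnitCentres CfsgLib.PseudoRefl
  CfsgLib.CircleSums

variable {ι : Type} [Fintype ι] [DecidableEq ι] {F : Type*} [Field F] [Fintype F]
variable {q : ℕ} {σ : F ≃+* F} {M : Subgroup (GL ι F)}

local notation "ax" i:max => (Pi.single i (1 : F) : ι → F)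

theorem fifteen_le (hS : Std q σ) (h2 : (2 : F) = 0) {n : ℕ} (hn : 13 ≤ n)
    (hall : ∀ z : F, Cir σ z → z ^ n = 1) (hq : q + 1 ≤ n) : 15 ≤ n := by
  classical
  by_contra hlt
  push Not at hlt
  obtain ⟨p, hp⟩ := CharP.exists F
  obtain ⟨j, hpr, hj⟩ := FiniteField.card F p
  have hp2 : p = 2 := by
    have h := (CharP.cast_eq_zero_iff F p 2).1 (by exact_mod_cast h2)
    exact (Nat.prime_dvd_prime_iff_eq hpr Nat.prime_two).1 h
  subst hp2
  have hdvd : q ∣ 2 ^ (j : ℕ) := by
    rw [← hj, hS.card]; exact dvd_pow_self q (by norm_num)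
  obtain ⟨i, -, rfl⟩ := (Nat.dvd_prime_pow Nat.prime_two).1 hdvd
  have hi : i ≤ 3 := by
    by_contra h
    have := Nat.pow_le_pow_right (show 1 ≤ 2 by norm_num) (show 4 ≤ i by omega)
    omega
  obtain ⟨z, hz, hz2⟩ := exists_cir_sq_ne_one hS.card hS.frob
  have hzq : z ^ (2 ^ i + 1) = 1 := by
    rw [pow_succ', ← hS.frob]; exact hz
  have h1 : z ^ Nat.gcd n (2 ^ i + 1) = 1 := pow_gcd_eq_one.2 ⟨hall z hz, hzq⟩
  have h2' := hS.two_le
  have : Nat.gcd n (2 ^ i + 1) = 1 := by
    interval_cases i <;> interval_cases n <;> first | rfl | omega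
  rw [this, pow_one] at h1
  exact hz2 (by rw [h1, one_pow])

variable (hO : Over q σ M) (hn : 13 ≤ Fintype.card ι)
  (hU : ∀ h : GL ι F, h ∈ M → ∀ a : ι,
    (h : Matrix ι ι F) *ᵥ (Pi.single a (1 : F) : ι → F) ∈
      Submodule.span F {(Pi.single a (1 : F) : ι → F)} → IsMono h)
include hO hn hU

theorem case_even (h2 : (2 : F) = 0) (hq : q + 1 ≤ Fintype.card ι) (hn15 : 15 ≤ Fintype.card ι)
    {g : GL ι F} (hg : g ∈ M) (hgm : ¬ IsMono g) : False := by
  classical
  obtain ⟨a⟩ : Nonempty ι := Fintype.card_pos_iff.1 (by omega)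
  have hz1 : ∀ a, (Finset.univ.filter fun i => ((g : Matrix ι ι F) *ᵥ ax a) i = 0).card ≤ 1 := by
    intro a
    refine Finset.card_le_one.2 fun i hi j hj => ?_
    by_contra hij
    exact one_zero hO hn hU hg hgm hij (Finset.mem_filter.1 hi).2 (Finset.mem_filter.1 hj).2
  set v := (g : Matrix ι ι F) *ᵥ ax a with hv
  have hzv : (Finset.univ.filter fun i => v i = 0).card ≤ 1 := hz1 a
  obtain ⟨l, hl, m, hm, hlm, hN⟩ := exists_equal_norms hO (v := v)
    (S := Finset.univ.filter fun i => v i ≠ 0) (fun i hi => (Finset.mem_filter.1 hi).2) (by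
      have h1 : (Finset.univ : Finset ι).card ≤
          (Finset.univ.filter fun i => v i = 0).card + (Finset.univ.filter fun i => v i ≠ 0).card := by
        refine le_trans (Finset.card_le_card fun i _ => ?_) (Finset.card_union_le _ _)
        simp [em]
      have := hzv
      rw [Finset.card_univ] at h1
      omega)
  have hvl : v l ≠ 0 := (Finset.mem_filter.1 hl).2
  have hvm : v m ≠ 0 := (Finset.mem_filter.1 hm).2
  set s : Fˣ := Units.mk0 (v m / v l) (div_ne_zero hvm hvl) with hs
  have hsc : Cir σ (s : F) := by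
    show v m / v l * σ (v m / v l) = 1
    have : σ (v l) ≠ 0 := by simpa using hvl
    rw [map_div₀, div_mul_div_comm, ← hN, div_self (mul_ne_zero hvl this)]
  set S0 := monoGL (Equiv.swap l m) (fun i => if i = l then s else if i = m then s⁻¹ else 1) with hS0
  set φ : Module.Dual F (ι → F) := LinearMap.proj l - (s : F)⁻¹ • LinearMap.proj m with hφ
  set y : ι → F := -(ax l - (s : F) • ax m) with hy
  have hφy : φ y = 0 := by
    have := s.ne_zero
    simp [hφ, hy, hlm, Ne.symm hlm]
    field_simp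
    linear_combination -h2
  have hS0eq : S0 = transv hφy := ext_mulVec fun x => by
    rw [hS0, swap_formula hlm, transv_mulVec, hy, smul_neg, ← sub_eq_add_neg]
    rfl
  have hsM : S0 ∈ M := by
    refine hO.mono_mem _ (iso_monoGL _ _ fun i => ?_) ?_ (isMono_monoGL _ _)
    · split_ifs
      · exact hsc
      · rw [Units.val_inv_eq_inv_val]; exact hsc.inv
      · exact cir_one σ
    · rw [hS0eq]; exact transv_mem_specialLinear _
  set z := ((g⁻¹ : GL ι F) : Matrix ι ι F) *ᵥ y with hz
  have hxy : ∀ x, ((g⁻¹ * S0 * g : GL ι F) : Matrix ι ι F) *ᵥ x =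
      x + φ ((g : Matrix ι ι F) *ᵥ x) • z := fun x => by
    rw [Units.val_mul, Units.val_mul, ← mulVec_mulVec, ← mulVec_mulVec, hS0eq, transv_mulVec,
      mulVec_add, inv_mulVec_mulVec, mulVec_smul]
  have hxm : IsMono (g⁻¹ * S0 * g) := by
    refine hU _ (M.mul_mem (M.mul_mem (M.inv_mem hg) hsM) hg) a ?_
    rw [hxy, show φ v = 0 by simp [hφ, hs]; field_simp; ring, zero_smul, add_zero]
    exact Submodule.mem_span_singleton_self _
  -- the centre has support two
  have hzz : sf σ z z = 0 := by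
    rw [hz, (hO.iso g hg).inv, hy]
    simp [sf, Finset.sum_add_distrib, Pi.single_apply, apply_ite σ, sub_mul, mul_sub,
      Finset.sum_sub_distrib, hlm, Ne.symm hlm]
    linear_combination (id hsc : (s : F) * σ (s : F) = 1) + h2
  obtain ⟨j, hj⟩ : ∃ j, φ ((g : Matrix ι ι F) *ᵥ ax j) ≠ 0 := by
    by_contra hno
    push Not at hno
    have h0 : φ = 0 := by
      refine LinearMap.ext fun x => ?_
      rw [← mulVec_inv_mulVec g x, ← Finset.univ_sum_single (((g⁻¹ : GL ι F) : Matrix ι ι F) *ᵥ x),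
        mulVec_sum, map_sum, LinearMap.zero_apply]
      refine Finset.sum_eq_zero fun i _ => ?_
      rw [show Pi.single i ((((g⁻¹ : GL ι F) : Matrix ι ι F) *ᵥ x) i) =
        (((g⁻¹ : GL ι F) : Matrix ι ι F) *ᵥ x) i • ax i by simp [← Pi.single_smul'],
        mulVec_smul, map_smul, hno, smul_zero]
    have := LinearMap.congr_fun h0 (ax l)
    simp [hφ, Ne.symm hlm] at this
  obtain ⟨j', hj'⟩ := hxm j
  obtain ⟨c, hc⟩ := Submodule.mem_span_singleton.1 hj'
  rw [hxy] at hc
  set κ := φ ((g : Matrix ι ι F) *ᵥ ax j) with hκ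
  have hzi : ∀ i, κ * z i = c * (ax j') i - (ax j) i := fun i => by
    have := congrFun hc i
    simp only [Pi.smul_apply, Pi.add_apply, smul_eq_mul] at this
    linear_combination -this
  have hjj : j' ≠ j := by
    intro e
    subst e
    have hsupp : ∀ i, i ≠ j' → z i = 0 := fun i hi => by
      have := hzi i
      rw [Pi.single_eq_of_ne hi, mul_zero, sub_zero] at this
      exact (mul_eq_zero.1 this).resolve_left hj
    have h0 : z j' = 0 := by
      rw [sf, Finset.sum_eq_single j' (fun i _ hi => by rw [hsupp i hi, zero_mul]) (by simp)] at hzz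
      simpa using hzz
    have : z = 0 := funext fun i => by
      by_cases hi : i = j'
      · rw [hi, h0]; rfl
      · exact hsupp i hi
    have h1 := congrArg (fun w => ((g : Matrix ι ι F) *ᵥ w) l) this
    rw [hz] at h1
    simp [mulVec_inv_mulVec, hy, hlm] at h1
  have hzsupp : ∀ i, i ≠ j → i ≠ j' → z i = 0 := fun i h1 h2 => by
    have := hzi i
    rw [Pi.single_eq_of_ne h1, Pi.single_eq_of_ne h2, mul_zero, sub_zero] at this
    exact (mul_eq_zero.1 this).resolve_left hj
  have hzj : z j ≠ 0 := fun e => by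
    have := hzi j
    rw [e, mul_zero, Pi.single_eq_same, Pi.single_eq_of_ne (Ne.symm hjj), mul_zero, zero_sub] at this
    exact one_ne_zero (neg_eq_zero.1 this.symm)
  have hzj' : z j' ≠ 0 := fun e => by
    have := hzi j'
    rw [e, mul_zero, Pi.single_eq_same, Pi.single_eq_of_ne hjj, mul_one, sub_zero] at this
    have h3 := congrArg (fun w => w) hc
    rw [← this, zero_smul] at h3
    exact mulVec_ne_zero (g⁻¹ * S0 * g) (ax_ne_zero j) ((hxy _).trans h3.symm)
  have hza : z a = 0 := by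
    rw [hz, inv_apply_eq (hO.iso g hg), ← hv, hy, hs]
    simp [sf, Finset.sum_sub_distrib, Pi.single_apply, neg_mul, sub_mul, hlm, Ne.symm hlm]
    field_simp
    linear_combination -hN
  have haj : a ≠ j := fun e => hzj (e ▸ hza)
  have haj' : a ≠ j' := fun e => hzj' (e ▸ hza)
  set cb : ι → F := fun p => σ (((g : Matrix ι ι F) *ᵥ ax j) p) * v p with hcb
  set cc : ι → F := fun p => σ (((g : Matrix ι ι F) *ᵥ ax j') p) * v p with hcc
  set K := -(σ (z j) / σ (z j')) with hK
  have hgz : (g : Matrix ι ι F) *ᵥ z = y := by rw [hz, mulVec_inv_mulVec]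
  have hzdec : z = z j • ax j + z j' • ax j' := funext fun i => by
    by_cases h1 : i = j
    · subst h1; simp [Ne.symm hjj]
    by_cases h2 : i = j'
    · subst h2; simp [hjj]
    · simp [h1, h2, hzsupp i h1 h2]
  have hout : ∀ p, p ≠ l → p ≠ m → cc p = K * cb p := by
    intro p hpl hpm
    have h1 := congrArg σ (congrFun hgz p)
    rw [hzdec, mulVec_add, mulVec_smul, mulVec_smul, hy] at h1
    simp [hpl, hpm] at h1
    rw [hcc, hcb, hK]
    have : σ (z j') ≠ 0 := by simpa using hzj'
    field_simp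
    simp only [col_apply] at h1 ⊢
    linear_combination (v p) * h1
  have hsum : ∀ b, b ≠ a → ∑ p, σ (((g : Matrix ι ι F) *ᵥ ax b) p) * v p = 0 := by
    intro b hb
    have h := hO.iso g hg (ax a) (ax b)
    rw [sf_ax_right, Pi.single_eq_of_ne hb] at h
    rw [← h, sf]
    exact Finset.sum_congr rfl fun p _ => mul_comm _ _
  obtain ⟨sz, hs6, hsn, hsn', hsco⟩ := exists_coprime_size hn
  have hsn6 := hsn' hn15
  set Bad := ({l, m} : Finset ι) ∪ (Finset.univ.filter fun i => v i = 0) ∪
    (Finset.univ.filter fun i => ((g : Matrix ι ι F) *ᵥ ax j) i = 0) with hBad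
  have hBadc : Bad.card ≤ 4 := by
    have h1 := Finset.card_union_le (({l, m} : Finset ι) ∪ (Finset.univ.filter fun i => v i = 0))
      (Finset.univ.filter fun i => ((g : Matrix ι ι F) *ᵥ ax j) i = 0)
    have h2 := Finset.card_union_le ({l, m} : Finset ι) (Finset.univ.filter fun i => v i = 0)
    have := hzv
    have := hz1 j
    have := Finset.card_le_two (a := l) (b := m)
    rw [← hBad] at h1
    omega
  obtain ⟨G8, hG8, hG8c⟩ := Finset.exists_subset_card_eq (s := Badᶜ) (n := 8) (by
    rw [Finset.card_compl]; omega)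
  obtain ⟨P, hPG, hP4⟩ := Finset.exists_subset_card_eq (s := G8) (n := 4) (by omega)
  have hQ4 : (G8 \ P).card = 4 := by rw [Finset.card_sdiff, Finset.inter_eq_left.2 hPG]; omega
  have hgood : ∀ i ∈ G8, i ≠ l ∧ i ≠ m ∧ v i ≠ 0 ∧ ((g : Matrix ι ι F) *ᵥ ax j) i ≠ 0 := by
    intro i hi
    have := Finset.mem_compl.1 (hG8 hi)
    simp only [hBad, Finset.mem_union, Finset.mem_insert, Finset.mem_singleton, Finset.mem_filter,
      Finset.mem_univ, true_and, not_or] at this
    exact ⟨this.1.1.1, this.1.1.2, this.1.2, this.2⟩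
  have hlmQ : P ∪ {l, m} ⊆ (G8 \ P)ᶜ := by
    intro i hi
    rw [Finset.mem_compl, Finset.mem_sdiff]
    rintro ⟨h1, h2⟩
    simp only [Finset.mem_union, Finset.mem_insert, Finset.mem_singleton] at hi
    rcases hi with h | rfl | rfl
    exacts [h2 h, (hgood _ h1).1 rfl, (hgood _ h1).2.1 rfl]
  obtain ⟨A, hA1, hA2, hAc⟩ := Finset.exists_subsuperset_card_eq hlmQ (n := sz)
    (by have := Finset.card_union_le P {l, m}; have := Finset.card_le_two (a := l) (b := m); omega)
    (by rw [Finset.card_compl]; omega)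
  obtain ⟨l₁, hl₁, hl₁'⟩ := Finset.exists_mem_notMem_of_card_lt_card
    (s := A ∪ (G8 \ P) ∪ Finset.univ.filter fun i => v i = 0) (t := (Finset.univ : Finset ι)) (by
      have h1 := Finset.card_union_le (A ∪ (G8 \ P)) (Finset.univ.filter fun i => v i = 0)
      have h2 := Finset.card_union_le A (G8 \ P)
      have := hzv
      rw [Finset.card_univ]
      omega)
  simp only [Finset.mem_union, Finset.mem_filter, Finset.mem_univ, true_and, not_or] at hl₁'
  have hc0 : ∀ i ∈ G8, cb i ≠ 0 := fun i hi =>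
    mul_ne_zero (by simpa using (hgood i hi).2.2.2) (hgood i hi).2.2.1
  obtain ⟨t, htc, htp, hts, htA, htax⟩ := exists_off_axis hO.std g⁻¹ v (c := cb) (A := A) (P := P)
    (Q := G8 \ P) (l₀ := l) (l₁ := l₁)
    (E := Finset.univ \ (G8 ∪ {l, m, l₁} ∪ Finset.univ.filter fun i => v i = 0)) (hAc ▸ hsco)
    (fun i hi => hA1 (Finset.mem_union_left _ hi))
    (Finset.disjoint_left.2 fun i hi hiA => Finset.mem_compl.1 (hA2 hiA) hi) hP4 hQ4
    (fun i hi => hc0 i (hPG hi)) (fun i hi => hc0 i (Finset.mem_sdiff.1 hi).1)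
    ⟨hA1 (Finset.mem_union_right _ (Finset.mem_insert_self _ _)), fun h => (hgood _ (hPG h)).1 rfl⟩
    ⟨hl₁'.1.1, hl₁'.1.2⟩ hvl hl₁'.2
    (fun i hi => by
      simp only [Finset.mem_sdiff, Finset.mem_univ, true_and, Finset.mem_union, Finset.mem_insert,
        Finset.mem_singleton, Finset.mem_filter, not_or] at hi
      exact ⟨fun h => hi.1.1 (hPG h), fun h => hi.1.1 (Finset.mem_sdiff.1 h).1, hi.1.2.1, hi.1.2.2.2,
        hi.2⟩)
    (by
      have h1 := Finset.card_union_le (G8 ∪ {l, m, l₁}) (Finset.univ.filter fun i => v i = 0)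
      have h2 := Finset.card_union_le G8 {l, m, l₁}
      have h3 := Finset.card_le_three (a := l) (b := m) (c := l₁)
      have := hzv
      have h4 := Finset.le_card_sdiff (G8 ∪ {l, m, l₁} ∪ Finset.univ.filter fun i => v i = 0)
        (Finset.univ : Finset ι)
      rw [Finset.card_univ] at h4
      exact pow_gt hO.std.two_le (by omega) (by omega))
  have htm : t m = t l := htA m (hA1 (Finset.mem_union_right _ (by simp)))
    (fun h => (hgood _ (hPG h)).2.1 rfl) (by simp)
  set x := g⁻¹ * dg t * g with hx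
  have hxM : x ∈ M := M.mul_mem (M.mul_mem (M.inv_mem hg) (hO.dg_mem htc htp)) hg
  have hcol : (x : Matrix ι ι F) *ᵥ ax a =
      ((g⁻¹ : GL ι F) : Matrix ι ι F) *ᵥ ((dg t : Matrix ι ι F) *ᵥ v) := by
    rw [hx, Units.val_mul, Units.val_mul, ← mulVec_mulVec, ← mulVec_mulVec]
  have hnm : ¬ IsMono x := fun h => by
    obtain ⟨d, hd⟩ := h a
    exact htax d (hcol ▸ hd)
  have hcoord : ∀ b, ((x : Matrix ι ι F) *ᵥ ax a) b =
      ∑ p, (t p : F) * (σ (((g : Matrix ι ι F) *ᵥ ax b) p) * v p) := by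
    intro b
    rw [hcol, inv_apply_eq (hO.iso g hg), sf]
    refine Finset.sum_congr rfl fun p _ => ?_
    rw [dg_mulVec]; ring
  refine one_zero hO hn hU hxM hnm (a := a) (Ne.symm hjj) (by rw [hcoord]; exact hts) ?_
  rw [hcoord]
  have e1 : ∀ p, (t p : F) * cc p = K * ((t p : F) * cb p) + (t l : F) * (cc p - K * cb p) := by
    intro p
    rcases eq_or_ne p l with rfl | hpl
    · ring
    rcases eq_or_ne p m with rfl | hpm
    · rw [htm]; ring
    · rw [hout p hpl hpm]; ring
  show ∑ p, (t p : F) * cc p = 0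
  rw [Finset.sum_congr rfl fun p _ => e1 p, Finset.sum_add_distrib, ← Finset.mul_sum, hts, mul_zero,
    zero_add, ← Finset.mul_sum, Finset.sum_sub_distrib, ← Finset.mul_sum, hsum j' (Ne.symm haj'),
    hsum j (Ne.symm haj)]
  ring

omit hU in
/-- Some non-monomial element fixes an axis. -/
theorem exists_fix {g₀ : GL ι F} (hg₀ : g₀ ∈ M) (hgm₀ : ¬ IsMono g₀) :
    ∃ h ∈ M, ¬ IsMono h ∧ ∃ a, (h : Matrix ι ι F) *ᵥ ax a ∈ Submodule.span F {ax a} := by
  classical
  by_contra hno
  push Not at hno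
  have hU : ∀ h : GL ι F, h ∈ M → ∀ a : ι,
      (h : Matrix ι ι F) *ᵥ ax a ∈ Submodule.span F {ax a} → IsMono h := fun h hh a hab =>
    by_contra fun hm => hno h hh hm a hab
  by_cases hall : ∀ z : F, Cir σ z → z ^ Fintype.card ι = 1
  · have hq : q + 1 ≤ Fintype.card ι := by
      rw [← card_cir hO.std.card hO.std.frob]
      refine (Finset.card_le_card (t := (Polynomial.nthRoots (Fintype.card ι) (1 : F)).toFinset)
        fun z hz => ?_).trans
        ((Multiset.toFinset_card_le _).trans (Polynomial.card_nthRoots _ _))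
      rw [Multiset.mem_toFinset, Polynomial.mem_nthRoots (by omega)]
      exact hall z (Finset.mem_filter.1 hz).2
    by_cases h2 : (2 : F) = 0
    · exact case_even hO hn hU h2 hq (fifteen_le hO.std h2 hn hall hq) hg₀ hgm₀
    · obtain ⟨g, hg, hgm, a, k, hk⟩ := exists_zero hO hn hU hg₀ hgm₀
      exact case_odd hO hn hU h2 hq hg hgm hk
  · push Not at hall
    obtain ⟨z, hz, hzn⟩ := hall
    obtain ⟨g, hg, hgm, a, k, hk⟩ := exists_zero hO hn hU hg₀ hgm₀
    exact case_scalar hO hn hU (ε := Units.mk0 z hz.ne_zero) hz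
      (fun e => hzn (by simpa using congrArg Units.val e)) hg hgm hk

end CfsgLib.UnitMono
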