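import Mathlib
import Cfsg.Agent.Classical.UnitMono.Closure

/-!
Spreading one centre over all isotropic vectors.
-/

set_option autoImplicit false

namespace CfsgLib.UnitMono

open Matrix CfsgLib.TransvGL CfsgLib.MonoBasics CfsgLib.UnitCentres CfsgLib.PseudoRefl
  CfsgLib.CircleSums

variable {ι : Type} [Fintype ι] [DecidableEq ι] {F : Type*} [Field F] [Fintype F]
variable {q : ℕ} {σ : F ≃+* F} {M : Subgroup (GL ι F)}

local notation "ax" i:max => (Pi.single i (1 : F) : ι → F)

open scoped Classical in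
/-- The support of a vector. -/
noncomputable def sp (x : ι → F) : Finset ι := Finset.univ.filter fun i => x i ≠ 0

theorem mem_sp {x : ι → F} {i : ι} : i ∈ sp x ↔ x i ≠ 0 := by simp [sp]

/-- The standard isotropic vector on two coordinates. -/
def pv (i j : ι) (x y : F) : ι → F := x • (Pi.single i (1 : F)) + y • (Pi.single j (1 : F))

theorem pv_apply {i j : ι} (hij : i ≠ j) (x y : F) (p : ι) :
    pv i j x y p = if p = i then x else if p = j then y else 0 := by
  unfold pv
  rcases eq_or_ne p i with rfl | hi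
  · simp [hij]
  rcases eq_or_ne p j with rfl | hj
  · simp [hi]
  · simp [hi, hj]

variable (hO : Over q σ M)
include hO

theorem Over.scale_vec {y : ι → F} (t : ι → Fˣ) (ht : ∀ i, Cir σ (t i : F)) {p : ι} :
    ∃ g ∈ M, ∀ x i, i ≠ p → ((g : Matrix ι ι F) *ᵥ x) i = (t i : F) * x i ∧
      (((g : Matrix ι ι F) *ᵥ y) p = 0 ↔ y p = 0) := by
  obtain ⟨g, hg, ⟨c, hc, hga⟩, hgi⟩ := hO.dg_fix t ht p
  refine ⟨g, hg, fun x i hi => ⟨hgi x i hi, ?_⟩⟩
  have e : ((g : Matrix ι ι F) *ᵥ y) p * σ c = y p := by
    have h1 := hO.iso g hg y (ax p)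
    rw [hga, smul_right hO.std.isUnitary, sf_ax_right, sf_ax_right] at h1
    linear_combination h1
  constructor
  · intro h; rw [← e, h, zero_mul]
  · intro h
    rw [h] at e
    exact (mul_eq_zero.1 e).resolve_right (by simpa using hc.ne_zero)

variable (hn : 13 ≤ Fintype.card ι)
include hn

theorem pair_seed (h3 : 3 ≤ q) {a : ι} {w : ι → F} (hw : Centre hO.std.isUnitary M w) (hwa : w a = 0)
    (hw0 : w ≠ 0) :
    ∃ l m x y, l ≠ m ∧ x ≠ 0 ∧ y ≠ 0 ∧ Centre hO.std.isUnitary M (pv l m x y) := by
  classical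
  have hf := hO.std.isUnitary (ι := ι)
  have hww : ∑ i, w i * σ (w i) = 0 := hw.iso
  have hs2 : 2 ≤ (sp w).card := by
    by_contra hlt
    push Not at hlt
    obtain ⟨i, hi⟩ := Function.ne_iff.1 hw0
    rw [Finset.sum_eq_single i (fun j _ hj => ?_) (by simp)] at hww
    · exact mul_ne_zero hi (by simpa using hi) hww
    · by_contra hne
      exact hj (Finset.card_le_one.1 (Nat.lt_succ_iff.1 hlt) j
        (mem_sp.2 fun e => hne (by rw [e, zero_mul])) i (mem_sp.2 hi))
  obtain ⟨l, hl, m, hm, hlm, hcase⟩ : ∃ l ∈ sp w, ∃ m ∈ sp w, l ≠ m ∧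
      ((sp w).card = 2 ∨ (w l * σ (w l) + w m * σ (w m) ≠ 0 ∨ (2 : F) = 0)) := by
    obtain ⟨l, hl, m, hm, hlm⟩ := Finset.one_lt_card.1 hs2
    by_cases hc : (sp w).card = 2
    · exact ⟨l, hl, m, hm, hlm, Or.inl hc⟩
    obtain ⟨p, hp, hpn⟩ := Finset.exists_mem_notMem_of_card_lt_card (s := ({l, m} : Finset ι))
      (t := sp w) (by have := Finset.card_le_two (a := l) (b := m); omega)
    simp only [Finset.mem_insert, Finset.mem_singleton, not_or] at hpn
    by_cases h1 : w l * σ (w l) + w m * σ (w m) = 0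
    · by_cases h2 : w l * σ (w l) + w p * σ (w p) = 0
      · by_cases h3 : w m * σ (w m) + w p * σ (w p) = 0
        · refine ⟨l, hl, m, hm, hlm, Or.inr (Or.inr ?_)⟩
          have e : (2 : F) * (w l * σ (w l)) = 0 := by linear_combination h1 + h2 - h3
          exact (mul_eq_zero.1 e).resolve_right (mul_ne_zero (mem_sp.1 hl) (by simpa using mem_sp.1 hl))
        · exact ⟨m, hm, p, hp, Ne.symm hpn.2, Or.inr (Or.inl h3)⟩
      · exact ⟨l, hl, p, hp, Ne.symm hpn.1, Or.inr (Or.inl h2)⟩
    · exact ⟨l, hl, m, hm, hlm, Or.inr (Or.inl h1)⟩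
  have hla : l ≠ a := fun e => mem_sp.1 hl (e ▸ hwa)
  have hma : m ≠ a := fun e => mem_sp.1 hm (e ▸ hwa)
  have hwl := mem_sp.1 hl
  have hwm := mem_sp.1 hm
  rcases hcase with hcase | hcase
  · refine ⟨l, m, w l, w m, hlm, hwl, hwm, ?_⟩
    have hsp : sp w = {l, m} := (Finset.eq_of_subset_of_card_le (by
      intro i hi; simp only [Finset.mem_insert, Finset.mem_singleton] at hi
      rcases hi with rfl | rfl <;> assumption) (by rw [hcase, Finset.card_pair hlm])).symm
    convert hw using 1
    funext i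
    rw [pv_apply hlm]
    split_ifs with h1 h2
    · rw [h1]
    · rw [h2]
    · by_contra hne
      have := mem_sp.2 (Ne.symm hne)
      rw [hsp] at this
      simp [h1, h2] at this
  obtain ⟨u, v, hu, hv, hu1, hv1, htr, hne⟩ := trace_pair hO.std.card hO.std.frob
    (norm_fixed hO.std.card hO.std.frob (w l)) (mul_ne_zero hwl (by simpa using hwl))
    (norm_fixed hO.std.card hO.std.frob (w m)) (mul_ne_zero hwm (by simpa using hwm)) hcase
  let t : ι → Fˣ := fun i => if i = l then Units.mk0 u hu.ne_zero else if i = m then Units.mk0 v hv.ne_zero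
    else 1
  have htc : ∀ i, Cir σ (t i : F) := fun i => by
    simp only [t]
    split_ifs
    exacts [hu, hv, cir_one σ]
  obtain ⟨g, hg, ⟨c, hc, hga⟩, hgi⟩ := hO.dg_fix t htc a
  set w' := (g : Matrix ι ι F) *ᵥ w with hw'
  have hw'a : w' a = 0 := by
    have h1 := hO.iso g hg w (ax a)
    rw [hga, smul_right hf, sf_ax_right, sf_ax_right, hwa] at h1
    exact (mul_eq_zero.1 h1).resolve_left (by simpa using hc.ne_zero)
  have hw'i : ∀ i, w' i = (t i : F) * w i := fun i => by
    by_cases hi : i = a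
    · rw [hi, hw'a, hwa, mul_zero]
    · exact hgi w i hi
  have hC' := hw.image hg (hO.iso g hg)
  have hfw : sf σ w' w = w l * σ (w l) * (u - 1) + w m * σ (w m) * (v - 1) := by
    have e : sf σ w' w = ∑ i, ((t i : F) - 1) * (w i * σ (w i)) := by
      rw [← sub_zero (sf σ w' w), ← hww, sf, ← Finset.sum_sub_distrib]
      exact Finset.sum_congr rfl fun i _ => by rw [hw'i]; ring
    rw [e, Fintype.sum_eq_add l m hlm fun i hi => by simp [t, hi.1, hi.2]]
    simp [t, Ne.symm hlm]
    ring
  have hd : (1 : F) • w' + (-1 : F) • w = pv l m ((u - 1) * w l) ((v - 1) * w m) := funext fun i => by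
    rw [pv_apply hlm, Pi.add_apply, Pi.smul_apply, Pi.smul_apply, hw'i]
    rcases eq_or_ne i l with rfl | hil
    · simp [t]; ring
    rcases eq_or_ne i m with rfl | him
    · simp [t, hil]; ring
    · simp [t, hil, him]
  refine ⟨l, m, (u - 1) * w l, (v - 1) * w m, hlm, mul_ne_zero (sub_ne_zero.2 hu1) hwl,
    mul_ne_zero (sub_ne_zero.2 hv1) hwm, hd ▸ hC'.line hw (by rw [hfw]; exact hne) ?_⟩
  rw [hf.add_left, UnitCentres.add_right hf, UnitCentres.add_right hf, hf.smul_left, hf.smul_left,
    hf.smul_left, hf.smul_left, smul_right hf, smul_right hf, smul_right hf, smul_right hf, hC'.iso,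
    hw.iso, hf.herm w w', map_one, map_neg, map_one]
  show _ = (0 : F)
  rw [← hw', hfw]
  linear_combination -htr

theorem pair_all {l m : ι} (hlm : l ≠ m) {x y : F} (hx : x ≠ 0) (hy : y ≠ 0)
    (hC : Centre hO.std.isUnitary M (pv l m x y)) {i j : ι} (hij : i ≠ j) {x' y' : F} (hx' : x' ≠ 0)
    (hy' : y' ≠ 0) (h0 : x' * σ x' + y' * σ y' = 0) : Centre hO.std.isUnitary M (pv i j x' y') := by
  classical
  have hf := hO.std.isUnitary (ι := ι)
  have h1 : x * σ x + y * σ y = 0 := by
    have := hC.iso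
    rw [sf, Fintype.sum_eq_add l m hlm fun p hp => by simp [pv_apply hlm, hp.1, hp.2]] at this
    simpa [pv_apply hlm, Ne.symm hlm] using this
  obtain ⟨π, hπl, hπm⟩ : ∃ π : Equiv.Perm ι, π l = i ∧ π m = j := by
    refine ⟨(Equiv.swap l i).trans (Equiv.swap (Equiv.swap l i m) j), ?_, ?_⟩
    · rw [Equiv.trans_apply, Equiv.swap_apply_left]
      refine Equiv.swap_apply_of_ne_of_ne (fun e => hlm ?_) hij
      apply (Equiv.swap l i).injective
      rw [Equiv.swap_apply_left]; exact e
    · rw [Equiv.trans_apply, Equiv.swap_apply_left]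
  obtain ⟨r, -, hr⟩ := Finset.exists_mem_notMem_of_card_lt_card (s := ({l, m} : Finset ι))
    (t := (Finset.univ : Finset ι))
    (by have := Finset.card_le_two (a := l) (b := m); rw [Finset.card_univ]; omega)
  simp only [Finset.mem_insert, Finset.mem_singleton, not_or] at hr
  obtain ⟨g, hg, s, -, hgj⟩ := hO.exists_perm π r
  have e1 : (g : Matrix ι ι F) *ᵥ pv l m x y = pv i j x y := by
    rw [pv, mulVec_add, mulVec_smul, mulVec_smul, hgj, hgj, if_neg (Ne.symm hr.1), if_neg (Ne.symm hr.2),
      one_smul, one_smul, hπl, hπm, pv]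
  have hC1 := e1 ▸ hC.image hg (hO.iso g hg)
  have hsx : σ x ≠ 0 := by simpa using hx
  have hρ : Cir σ (y' * x / (x' * y)) := by
    show y' * x / (x' * y) * σ (y' * x / (x' * y)) = 1
    have hsy : σ y ≠ 0 := by simpa using hy
    have hsx' : σ x' ≠ 0 := by simpa using hx'
    rw [map_div₀, map_mul, map_mul]
    field_simp
    linear_combination (x * σ x) * h0 - (x' * σ x') * h1
  obtain ⟨p, -, hp⟩ := Finset.exists_mem_notMem_of_card_lt_card (s := ({i, j} : Finset ι))
    (t := (Finset.univ : Finset ι))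
    (by have := Finset.card_le_two (a := i) (b := j); rw [Finset.card_univ]; omega)
  simp only [Finset.mem_insert, Finset.mem_singleton, not_or] at hp
  obtain ⟨d, hd, hdi⟩ := hO.scale_vec (y := pv i j x y) (p := p)
    (fun k => if k = j then Units.mk0 _ hρ.ne_zero else 1)
    (fun k => by split_ifs; exacts [hρ, cir_one σ])
  have e2 : pv i j x' y' = (x' / x) • ((d : Matrix ι ι F) *ᵥ pv i j x y) := funext fun k => by
    rw [Pi.smul_apply, pv_apply hij, smul_eq_mul]
    rcases eq_or_ne k p with rfl | hkp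
    · rw [((hdi 0 i (Ne.symm hp.1)).2).2 (by simp [pv_apply hij, hp.1, hp.2]), if_neg hp.1, if_neg hp.2,
        mul_zero]
    · rw [(hdi _ k hkp).1, pv_apply hij]
      rcases eq_or_ne k i with rfl | hki
      · simp [hij]; field_simp
      rcases eq_or_ne k j with rfl | hkj
      · simp [hki]; field_simp
      · simp [hki, hkj]
  exact e2 ▸ (hC1.image hd (hO.iso d hd)).smul _

variable (hP : ∀ {i j : ι}, i ≠ j → ∀ {x y : F}, x ≠ 0 → y ≠ 0 → x * σ x + y * σ y = 0 →
  Centre (M := M) (hO.std.isUnitary (ι := ι)) (pv i j x y))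
include hP

omit hn in
theorem pair_transv {i j : ι} (hij : i ≠ j) {ξ : F} (hξ : ξ * σ ξ = -1) {c : F} (hc : c + σ c = 0)
    (y : ι → F) :
    ∃ T ∈ M, (∀ p, p ≠ i → p ≠ j → ((T : Matrix ι ι F) *ᵥ y) p = y p) ∧
      ((T : Matrix ι ι F) *ᵥ y) i = y i + c * (y i + σ ξ * y j) ∧
      ((T : Matrix ι ι F) *ᵥ y) j = y j + c * (y i + σ ξ * y j) * ξ := by
  have hξ0 : ξ ≠ 0 := fun e => by simp [e] at hξ
  obtain ⟨hz, hT⟩ := hP hij one_ne_zero hξ0 (by rw [map_one, hξ]; ring)
  have hf : sf σ y (pv i j 1 ξ) = y i + σ ξ * y j := by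
    rw [sf, Fintype.sum_eq_add i j hij fun p hp => by simp [pv_apply hij, hp.1, hp.2]]
    simp [pv_apply hij, Ne.symm hij]
    ring
  refine ⟨_, hT c hc, fun p h1 h2 => ?_, ?_, ?_⟩ <;>
    simp [uT_mulVec, hf, pv_apply hij, Ne.symm hij, *]

/-- One coordinate of a pair with non-zero total norm can be removed. -/
theorem kill_coord {i j : ι} (hij : i ≠ j) {y : ι → F}
    (hr : y i * σ (y i) + y j * σ (y j) ≠ 0) (hyi : y i ≠ 0) (hyj : y j ≠ 0) :
    ∃ G ∈ M, sp ((G : Matrix ι ι F) *ᵥ y) ⊆ (sp y).erase j := by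
  classical
  have hf := hO.std.isUnitary (ι := ι)
  have hq := hO.std.two_le
  set A := y i * σ (y i) with hA
  set r := y i * σ (y i) + y j * σ (y j) with hr'
  have hrf : σ r = r := by
    rw [hr', map_add, norm_fixed hO.std.card hO.std.frob, norm_fixed hO.std.card hO.std.frob]
  obtain ⟨c, hc, hc1, hc0⟩ : ∃ c : F, c + σ c = 0 ∧ c + 1 ≠ 0 ∧ c ≠ 0 := by
    obtain ⟨c, hc0, hc⟩ := exists_traceZero hf
    by_cases h1 : c + 1 = 0
    · obtain ⟨r0, hr0⟩ : ∃ r0 : F, r0 ∈ (Finset.univ.filter fun z : F => σ z = z) ∧ r0 ≠ 0 ∧ r0 ≠ 1 := by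
        by_contra hno
        push Not at hno
        have h2 : (Finset.univ.filter fun z : F => σ z = z) ⊆ {0, 1} := fun z hz => by
          by_cases hz0 : z = 0
          · simp [hz0]
          · simp [hno z hz hz0]
        have := Finset.card_le_card h2
        rw [card_fixed hO.std.card hO.std.frob] at this
        have hq2 : q = 2 := le_antisymm (this.trans Finset.card_le_two) hq
        -- in that case the pair has norm zero or one coordinate vanishes
        have hone : ∀ z : F, z ≠ 0 → z * σ z = 1 := fun z hz =>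
          hno _ (Finset.mem_filter.2 ⟨Finset.mem_univ _, norm_fixed hO.std.card hO.std.frob z⟩)
            (mul_ne_zero hz (by simpa using hz))
        refine hr ?_
        rw [hr', hone _ hyi, hone _ hyj]
        have h4 : c = -1 := eq_neg_of_add_eq_zero_left h1
        rw [h4, map_neg, map_one] at hc
        linear_combination -hc
      refine ⟨r0 * c, ?_, fun e => hr0.2.2 ?_, mul_ne_zero hr0.2.1 hc0⟩
      · have h5 := (Finset.mem_filter.1 hr0.1).2
        rw [map_mul, h5]
        linear_combination r0 * hc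
      · linear_combination r0 * h1 - e
    · exact ⟨c, hc, h1, hc0⟩
  obtain ⟨ξ0, hξ0⟩ := exists_norm hO.std.card hO.std.frob (r := (-1 : F)) (by simp)
  have hξ00 : ξ0 ≠ 0 := fun e => by simp [e] at hξ0
  have hσc : σ c = -c := by linear_combination hc
  set Nc := c * σ c with hNc
  have hNcf : σ Nc = Nc := norm_fixed hO.std.card hO.std.frob c
  set κ := (Nc - c) * (y i * σ (y j)) * ξ0 with hκ
  have hκ0 : κ ≠ 0 := by
    refine mul_ne_zero (mul_ne_zero ?_ (mul_ne_zero hyi (by simpa using hyj))) hξ00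
    rw [hNc, hσc]
    intro h
    exact mul_ne_zero hc0 hc1 (by linear_combination -h)
  set const := A + Nc * (y i * σ (y i) - y j * σ (y j)) with hconst
  set S := (Finset.univ.filter fun u : F => Cir σ u).image fun u => const + (κ * u + σ (κ * u)) with hS
  set Tg := (Finset.univ.filter fun z : F => z + σ z = 0).image fun z => r + r * (z * σ z) with hTg
  have hSc : q + 1 ≤ 2 * S.card := by
    have h1 := trace_card hO.std.card hO.std.frob hκ0
      ((Finset.univ.filter fun u : F => Cir σ u).image fun u => κ * u + σ (κ * u))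
      fun u hu => Finset.mem_image_of_mem _ (by simpa using hu)
    rwa [hS, show (fun u => const + (κ * u + σ (κ * u))) =
        (fun z => const + z) ∘ fun u => κ * u + σ (κ * u) from rfl, ← Finset.image_image,
      Finset.card_image_of_injective _ (add_right_injective const)]
  have hTc : q ≤ 2 * Tg.card := by
    have h1 : q ≤ (Finset.univ.filter fun z : F => z + σ z = 0).card := by
      obtain ⟨c0, hc00, hc0'⟩ := exists_traceZero hf
      rw [← card_fixed hO.std.card hO.std.frob]
      refine Finset.card_le_card_of_injOn (fun z => z * c0) (fun z hz => ?_) fun z _ z' _ e => mul_right_cancel₀ hc00 e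
      simp only [Finset.coe_filter, Finset.mem_univ, true_and, Set.mem_setOf_eq] at hz ⊢
      rw [map_mul, hz]; linear_combination z * hc0'
    refine h1.trans (Finset.card_le_mul_card_image_of_maps_to (fun z hz => Finset.mem_image_of_mem _ hz)
      2 fun t _ => ?_)
    rcases Finset.eq_empty_or_nonempty ((Finset.univ.filter fun z : F => z + σ z = 0).filter
      fun z => r + r * (z * σ z) = t) with he | ⟨z0, hz0⟩
    · rw [he]; simp
    refine (Finset.card_le_card (t := {z0, -z0}) fun z hz => ?_).trans Finset.card_le_two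
    simp only [Finset.mem_filter, Finset.mem_univ, true_and] at hz hz0
    have h2 : z * σ z = z0 * σ z0 :=
      mul_left_cancel₀ hr (by linear_combination hz.2 - hz0.2)
    have hz' : σ z = -z := by linear_combination hz.1
    have hz0' : σ z0 = -z0 := by linear_combination hz0.1
    rw [hz', hz0'] at h2
    have h3 : (z - z0) * (z + z0) = 0 := by linear_combination -h2
    simp only [Finset.mem_insert, Finset.mem_singleton]
    rcases mul_eq_zero.1 h3 with h | h
    · exact Or.inl (sub_eq_zero.1 h)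
    · exact Or.inr (eq_neg_of_add_eq_zero_left h)
  obtain ⟨t, ht⟩ : ((S ∩ Tg)).Nonempty := by
    refine Finset.inter_nonempty_of_card_lt_card_add_card (s := Finset.univ.filter fun z : F => σ z = z)
      ?_ ?_ (by rw [card_fixed hO.std.card hO.std.frob]; omega)
    · intro z hz
      simp only [hS, Finset.mem_image] at hz
      obtain ⟨u, -, rfl⟩ := hz
      simp only [Finset.mem_filter, Finset.mem_univ, true_and]
      simp only [hconst, hA, map_add, map_mul, map_sub, hO.std.invol, hNcf]
      ring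
    · intro z hz
      simp only [hTg, Finset.mem_image] at hz
      obtain ⟨w, -, rfl⟩ := hz
      simp only [Finset.mem_filter, Finset.mem_univ, true_and]
      simp only [map_add, map_mul, hrf, hO.std.invol]
      ring
  simp only [hS, hTg, Finset.mem_inter, Finset.mem_image, Finset.mem_filter, Finset.mem_univ, true_and] at ht
  obtain ⟨⟨u, hu, hut⟩, c1, hc1', hc1t⟩ := ht
  set ξ := ξ0 * u with hξ
  have hξn : ξ * σ ξ = -1 := by
    rw [hξ, map_mul]
    linear_combination (u * σ u) * hξ0 - (id hu : u * σ u = 1)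
  obtain ⟨T, hT, hTo, hTi, hTj⟩ := pair_transv hO hP hij hξn hc y
  set y' := (T : Matrix ι ι F) *ᵥ y
  have hy'i : y' i * σ (y' i) = t := by
    rw [← hut, hTi, hconst, hκ, hA, hNc, hξ]
    simp only [map_add, map_mul, map_sub, map_neg, hO.std.invol, hσc]
    have e1 : ξ0 * σ ξ0 = -1 := hξ0
    have e2 : u * σ u = 1 := hu
    linear_combination (-(c * c) * (y j * σ (y j)) * (u * σ u)) * e1 + (c * c * (y j * σ (y j))) * e2
  have hy'r : y' i * σ (y' i) + y' j * σ (y' j) = r := by
    have h1 := hO.iso T hT y y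
    have hsplit : ∀ z : ι → F, sf σ z z =
        z i * σ (z i) + (z j * σ (z j) + ∑ p ∈ (Finset.univ.erase i).erase j, z p * σ (z p)) := fun z => by
      rw [sf, Finset.add_sum_erase _ (fun p => z p * σ (z p))
        (Finset.mem_erase.2 ⟨Ne.symm hij, Finset.mem_univ j⟩),
        Finset.add_sum_erase _ (fun p => z p * σ (z p)) (Finset.mem_univ i)]
    rw [hsplit, hsplit, Finset.sum_congr rfl fun p hp => by
      simp only [Finset.mem_erase] at hp
      rw [show ((T : Matrix ι ι F) *ᵥ y) p = y p from hTo p hp.2.1 hp.1]] at h1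
    rw [hr']
    linear_combination h1
  obtain ⟨x0, hx0⟩ := exists_norm hO.std.card hO.std.frob hrf
  have hx00 : x0 ≠ 0 := fun e => hr (by rw [← hx0, e, zero_mul])
  set wi := x0 * (1 + c1) with hwi
  set wj := c1 * x0 * ξ0 with hwj
  have hσc1 : σ c1 = -c1 := by linear_combination hc1'
  have hwin : wi * σ wi = y' i * σ (y' i) := by
    rw [hy'i, ← hc1t, hwi, map_mul, map_add, map_one, hσc1]
    linear_combination (1 - c1 * c1) * hx0
  have hwjn : wj * σ wj = y' j * σ (y' j) := by
    have h1 : y' j * σ (y' j) = -(r * (c1 * σ c1)) := by linear_combination hy'r - hy'i + hc1t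
    rw [h1, hwj, map_mul, map_mul, hσc1]
    linear_combination (-(c1 * c1) * ξ0 * σ ξ0) * hx0 + (-(c1 * c1) * r) * hξ0
  have hratio : ∀ z w : F, w * σ w = z * σ z → ∃ ρ : F, Cir σ ρ ∧ ρ * z = w := by
    intro z w h
    by_cases hz : z = 0
    · subst hz
      refine ⟨1, cir_one σ, ?_⟩
      rw [zero_mul, mul_eq_zero] at h
      rcases h with h | h
      · rw [h, mul_zero]
      · rw [mul_zero]; exact ((map_eq_zero σ).1 h).symm
    · refine ⟨w / z, ?_, div_mul_cancel₀ _ hz⟩
      have : σ z ≠ 0 := by simpa using hz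
      show w / z * σ (w / z) = 1
      rw [map_div₀, div_mul_div_comm, h, div_self (mul_ne_zero hz this)]
  obtain ⟨ρi, hρi, hρi'⟩ := hratio _ _ hwin
  obtain ⟨ρj, hρj, hρj'⟩ := hratio _ _ hwjn
  obtain ⟨p, -, hp⟩ := Finset.exists_mem_notMem_of_card_lt_card (s := ({i, j} : Finset ι))
    (t := (Finset.univ : Finset ι))
    (by have := Finset.card_le_two (a := i) (b := j); rw [Finset.card_univ]; omega)
  simp only [Finset.mem_insert, Finset.mem_singleton, not_or] at hp
  obtain ⟨D, hD, hDi⟩ := hO.scale_vec (y := y') (p := p)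
    (fun k => if k = i then Units.mk0 ρi hρi.ne_zero else if k = j then Units.mk0 ρj hρj.ne_zero else 1)
    (fun k => by split_ifs; exacts [hρi, hρj, cir_one σ])
  set y'' := (D : Matrix ι ι F) *ᵥ y'
  set y0 : ι → F := fun k => if k = i then x0 else if k = j then 0 else y'' k with hy0
  obtain ⟨T1, hT1, hT1o, hT1i, hT1j⟩ := pair_transv hO hP hij hξ0 hc1' y0
  have e : (T1 : Matrix ι ι F) *ᵥ y0 = y'' := funext fun k => by
    rcases eq_or_ne k i with rfl | hki
    · rw [hT1i, show y'' k = _ from (hDi y' k (fun e => hp.1 e.symm)).1]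
      simp [hy0, Ne.symm hij, hρi', hwi]
      ring
    rcases eq_or_ne k j with rfl | hkj
    · rw [hT1j, show y'' k = _ from (hDi y' k (fun e => hp.2 e.symm)).1]
      simp [hy0, hki, hρj', hwj]
    · rw [hT1o k hki hkj]; simp [hy0, hki, hkj]
  refine ⟨T1⁻¹ * D * T, M.mul_mem (M.mul_mem (M.inv_mem hT1) hD) hT, ?_⟩
  rw [Units.val_mul, Units.val_mul, ← mulVec_mulVec, ← mulVec_mulVec]
  show sp (((T1⁻¹ : GL ι F) : Matrix ι ι F) *ᵥ y'') ⊆ _
  rw [← e, inv_mulVec_mulVec]
  intro k hk
  rw [mem_sp, hy0] at hk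
  rw [Finset.mem_erase, mem_sp]
  rcases eq_or_ne k i with rfl | hki
  · exact ⟨hij, hyi⟩
  simp only [if_neg hki] at hk
  rcases eq_or_ne k j with rfl | hkj
  · simp at hk
  simp only [if_neg hkj] at hk
  refine ⟨hkj, fun h0 => hk ?_⟩
  have hk' : y' k = 0 := by rw [show y' k = y k from hTo k hki hkj, h0]
  rcases eq_or_ne k p with rfl | hkp
  · exact ((hDi y' i (fun e => hki e.symm)).2).2 hk'
  · rw [show y'' k = _ from (hDi y' k hkp).1, hk', mul_zero]

/-- All isotropic vectors are centres once all isotropic two-supported vectors are. -/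
theorem all_isotropic (h3 : 3 ≤ q) :
    ∀ y, sf σ y y = 0 → Centre hO.std.isUnitary M y := by
  classical
  have hf := hO.std.isUnitary (ι := ι)
  suffices H : ∀ s, ∀ y, (sp y).card ≤ s → sf σ y y = 0 → Centre hO.std.isUnitary M y from
    fun y hy => H _ y le_rfl hy
  intro s
  induction s using Nat.strong_induction_on with
  | _ s IH =>
  intro y hys hy
  rcases Nat.lt_or_ge (sp y).card s with hlt | hge
  · exact IH _ hlt y le_rfl hy
  have hs : (sp y).card = s := le_antisymm hys hge
  -- kill a coordinate and use induction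
  have finish : ∀ z : ι → F, sf σ z z = 0 → (sp z).card ≤ s → ∀ i j, i ≠ j → z i ≠ 0 → z j ≠ 0 →
      z i * σ (z i) + z j * σ (z j) ≠ 0 → Centre hO.std.isUnitary M z := by
    intro z hz hzs i j hij hi hj hr
    obtain ⟨G, hG, hsub⟩ := kill_coord hO hn hP hij hr hi hj
    have hlt : (sp ((G : Matrix ι ι F) *ᵥ z)).card < s := by
      refine lt_of_le_of_lt (Finset.card_le_card hsub) ?_
      have := Finset.card_erase_lt_of_mem (mem_sp.2 hj)
      omega
    have h1 := IH _ hlt _ le_rfl (show sf σ _ _ = 0 by rw [hO.iso G hG]; exact hz)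
    have h2 := h1.image (M.inv_mem hG) (hO.iso _ (M.inv_mem hG))
    rwa [inv_mulVec_mulVec] at h2
  rcases Nat.lt_or_ge s 3 with hs3 | hs3
  · obtain h0 | h1 | h2 : (sp y).card = 0 ∨ (sp y).card = 1 ∨ (sp y).card = 2 := by omega
    · have : y = 0 := funext fun i => by
        by_contra hne
        have := Finset.card_pos.2 ⟨i, mem_sp.2 hne⟩
        omega
      subst this
      refine ⟨hy, fun c _ => ?_⟩
      convert M.one_mem using 1
      exact ext_mulVec fun x => by simp [uT_mulVec]
    · obtain ⟨i, hi⟩ := Finset.card_eq_one.1 h1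
      have hyi : y i ≠ 0 := mem_sp.1 (hi ▸ Finset.mem_singleton_self i)
      rw [sf, Finset.sum_eq_single i (fun j _ hj => by
        have : j ∉ sp y := by rw [hi]; simpa using hj
        rw [mem_sp, not_not] at this
        rw [this, zero_mul]) (by simp)] at hy
      exact absurd hy (mul_ne_zero hyi (by simpa using hyi))
    · obtain ⟨i, j, hij, he⟩ := Finset.card_eq_two.1 h2
      have hyi : y i ≠ 0 := mem_sp.1 (by rw [he]; simp)
      have hyj : y j ≠ 0 := mem_sp.1 (by rw [he]; simp)
      have hye : y = pv i j (y i) (y j) := funext fun p => by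
        rw [pv_apply hij]
        split_ifs with h1 h2
        · rw [h1]
        · rw [h2]
        · have : p ∉ sp y := by rw [he]; simp [h1, h2]
          rwa [mem_sp, not_not] at this
      rw [hye]
      refine hP hij hyi hyj ?_
      rw [sf, Fintype.sum_eq_add i j hij fun p hp => by
        rw [hye, pv_apply hij, if_neg hp.1, if_neg hp.2, zero_mul]] at hy
      exact hy
  by_cases hex : ∃ i j, i ≠ j ∧ y i ≠ 0 ∧ y j ≠ 0 ∧ y i * σ (y i) + y j * σ (y j) ≠ 0
  · obtain ⟨i, j, hij, hi, hj, hr⟩ := hex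
    exact finish y hy hys i j hij hi hj hr
  push Not at hex
  obtain ⟨a, b, p, ha, hb, hp, hab, hap, hbp⟩ := Finset.two_lt_card_iff.1 (show 2 < (sp y).card by omega)
  rw [mem_sp] at ha hb hp
  have e1 := hex a b hab ha hb
  have e2 := hex a p hap ha hp
  have e3 := hex b p hbp hb hp
  have h20 : (2 : F) = 0 := by
    have e : (2 : F) * (y a * σ (y a)) = 0 := by linear_combination e1 + e2 - e3
    exact (mul_eq_zero.1 e).resolve_right (mul_ne_zero ha (by simpa using ha))
  -- change the norm of one coordinate of the isotropic pair (a, b)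
  obtain ⟨c, hc0, hc⟩ := exists_traceZero hf
  obtain ⟨ξ0, hξ0⟩ := exists_norm hO.std.card hO.std.frob (r := (-1 : F)) (by simp)
  have hξ00 : ξ0 ≠ 0 := fun e => by simp [e] at hξ0
  obtain ⟨c, hc, hc0, hc1⟩ : ∃ c : F, c + σ c = 0 ∧ c ≠ 0 ∧ c + 1 ≠ 0 := by
    by_cases h1 : c + 1 = 0
    · obtain ⟨r0, hr0, hr0'⟩ := Finset.exists_mem_notMem_of_card_lt_card (s := ({0, 1} : Finset F))
        (t := Finset.univ.filter fun z : F => σ z = z)
        (by rw [card_fixed hO.std.card hO.std.frob]; exact Finset.card_le_two.trans_lt (by omega))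
      simp only [Finset.mem_insert, Finset.mem_singleton, not_or] at hr0'
      refine ⟨r0 * c, ?_, mul_ne_zero hr0'.1 hc0, fun e => hr0'.2 (by linear_combination r0 * h1 - e)⟩
      rw [map_mul, (Finset.mem_filter.1 hr0).2]
      linear_combination r0 * hc
    · exact ⟨c, hc, hc0, h1⟩
  have hσc : σ c = -c := by linear_combination hc
  set κ := (c * σ c - c) * (y a * σ (y b)) * ξ0 with hκ
  have hκ0 : κ ≠ 0 := by
    refine mul_ne_zero (mul_ne_zero ?_ (mul_ne_zero ha (by simpa using hb))) hξ00
    rw [hσc]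
    intro h
    exact mul_ne_zero hc0 hc1 (by linear_combination -h)
  obtain ⟨u, hu, hune⟩ : ∃ u, Cir σ u ∧ κ * u + σ (κ * u) ≠ 0 := by
    by_contra hno
    push Not at hno
    have := trace_card hO.std.card hO.std.frob hκ0 {0} fun u hu => by rw [hno u hu]; exact Finset.mem_singleton_self 0
    rw [Finset.card_singleton] at this
    omega
  have hξn : (ξ0 * u) * σ (ξ0 * u) = -1 := by
    rw [map_mul]
    linear_combination (u * σ u) * hξ0 - (id hu : u * σ u = 1)
  obtain ⟨T, hT, hTo, hTa, -⟩ := pair_transv hO hP hab hξn hc y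
  set z := (T : Matrix ι ι F) *ᵥ y
  have hzz : sf σ z z = 0 := by rw [hO.iso T hT]; exact hy
  have hza : z a * σ (z a) = y a * σ (y a) + (κ * u + σ (κ * u)) := by
    rw [hTa, hκ]
    simp only [map_add, map_mul, map_sub, map_neg, hO.std.invol, hσc]
    linear_combination (-(c * c) * (y b * σ (y b)) * (u * σ u)) * hξ0
      + (c * c * (y b * σ (y b))) * (id hu : u * σ u = 1) + (c * c * (y b * σ (y b))) * h20
      - (c * c) * e1
  have hzp : z p = y p := hTo p (Ne.symm hap) (Ne.symm hbp)
  have hzs : (sp z).card ≤ s := by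
    rw [← hs]
    refine Finset.card_le_card fun k hk => ?_
    rw [mem_sp] at hk ⊢
    rcases eq_or_ne k a with rfl | hka
    · exact ha
    rcases eq_or_ne k b with rfl | hkb
    · exact hb
    rwa [show z k = y k from hTo k hka hkb] at hk
  have hz_back : Centre hO.std.isUnitary M z → Centre hO.std.isUnitary M y := fun h => by
    have h2 := h.image (M.inv_mem hT) (hO.iso _ (M.inv_mem hT))
    rwa [inv_mulVec_mulVec] at h2
  refine hz_back ?_
  by_cases hza0 : z a = 0
  · refine IH _ ?_ z le_rfl hzz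
    rw [← hs]
    refine Finset.card_lt_card ⟨fun k hk => ?_, fun hsub => mem_sp.1 (hsub (mem_sp.2 ha)) hza0⟩
    rw [mem_sp] at hk ⊢
    rcases eq_or_ne k a with rfl | hka
    · exact ha
    rcases eq_or_ne k b with rfl | hkb
    · exact hb
    rwa [show z k = y k from hTo k hka hkb] at hk
  · refine finish z hzz hzs a p hap hza0 (hzp ▸ hp) ?_
    rw [hzp, hza]
    exact fun h => hune (by linear_combination h - e2)

omit hn hP in
theorem pair_two (hq : q = 2) {i j : ι} (hij : i ≠ j) {x y : F} (hx : x ≠ 0) (hy : y ≠ 0)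
    (h0 : x * σ x + y * σ y = 0) : Centre hO.std.isUnitary M (pv i j x y) := by
  have hf := hO.std.isUnitary (ι := ι)
  have hone : ∀ z : F, z ≠ 0 → z * σ z = 1 := fun z hz => by
    have h3 : z ^ 3 = 1 := by
      have := FiniteField.pow_card_sub_one_eq_one z hz
      rwa [hO.std.card, hq] at this
    rw [hO.std.frob, hq]; linear_combination h3
  have h20 : (2 : F) = 0 := by
    have := h0; rw [hone x hx, hone y hy] at this; linear_combination this
  have hiso : sf σ (pv i j x y) (pv i j x y) = 0 := by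
    rw [sf, Fintype.sum_eq_add i j hij fun p hp => by simp [pv_apply hij, hp.1, hp.2]]
    simpa [pv_apply hij, Ne.symm hij] using h0
  refine ⟨hiso, fun c hc => ?_⟩
  refine hO.mono_mem _ (uT_iso hf hiso hc) (uT_mem_specialLinear hf hiso c) fun k => ?_
  by_cases hc0 : c = 0
  · exact ⟨k, by rw [uT_mulVec, hc0]; simp⟩
  have hc1 : c = 1 := by
    have h1 := hone c hc0
    have hσc : σ c = c := by linear_combination hc - c * h20
    rw [hσc] at h1
    have : (c - 1) ^ 2 = 0 := by linear_combination h1 + (1 - c) * h20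
    exact sub_eq_zero.1 (pow_eq_zero_iff (by norm_num) |>.1 this)
  rw [hc1]
  rcases eq_or_ne k i with rfl | hki
  · refine ⟨j, mem_axis_iff.2 fun p hp => ?_⟩
    rw [uT_mulVec, sf_ax_left, Pi.add_apply, Pi.smul_apply, pv_apply hij, smul_eq_mul, pv_apply hij]
    rcases eq_or_ne p k with rfl | hpk
    · simp; linear_combination (hone x hx) + h20
    · simp [hpk, hp]
  rcases eq_or_ne k j with rfl | hkj
  · refine ⟨i, mem_axis_iff.2 fun p hp => ?_⟩
    rw [uT_mulVec, sf_ax_left, Pi.add_apply, Pi.smul_apply, pv_apply hij, smul_eq_mul, pv_apply hij]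
    rcases eq_or_ne p k with rfl | hpk
    · simp [hki]; linear_combination (hone y hy) + h20
    · simp [hpk, hp, hki]
  · refine ⟨k, ?_⟩
    rw [uT_mulVec, sf_ax_left, pv_apply hij]
    simp [hki, hkj, Submodule.mem_span_singleton_self]

omit hn hP in
theorem four_spread (hq : q = 2) (hn : 13 ≤ Fintype.card ι) {w : ι → F} (hw : Centre hO.std.isUnitary M w) {T : Finset ι}
    (hT4 : T.card = 4) (hT : ∀ i, i ∈ T ↔ w i ≠ 0) {y : ι → F} (hy : (sp y).card = 4) :
    Centre hO.std.isUnitary M y := by
  classical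
  obtain ⟨e⟩ : Nonempty ({i // i ∈ T} ≃ {i // i ∈ sp y}) :=
    ⟨Fintype.equivOfCardEq (by rw [Fintype.card_coe, Fintype.card_coe, hT4, hy])⟩
  set π : Equiv.Perm ι := e.extendSubtype
  obtain ⟨r, -, hr⟩ := Finset.exists_mem_notMem_of_card_lt_card (s := T) (t := (Finset.univ : Finset ι))
    (by rw [Finset.card_univ]; omega)
  obtain ⟨g, hg, s, hs, hgj⟩ := hO.exists_perm π r
  have hC := hw.image hg (hO.iso g hg)
  set w' := (g : Matrix ι ι F) *ᵥ w with hw'
  have hw'e : ∀ k, w' (π k) = (if k = r then (s : F) else 1) * w k := fun k => by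
    rw [hw', ← Finset.univ_sum_single w, mulVec_sum, Finset.sum_apply, Finset.univ_sum_single w]
    rw [Finset.sum_eq_single k (fun l _ hl => ?_) (by simp)]
    · rw [show Pi.single k (w k) = w k • ax k by simp [← Pi.single_smul'], mulVec_smul, hgj]
      split_ifs <;> simp <;> ring
    · rw [show Pi.single l (w l) = w l • ax l by simp [← Pi.single_smul'], mulVec_smul, hgj]
      have hne : π k ≠ π l := fun e => hl (π.injective e).symm
      split_ifs <;> simp [hne]
  have hsupp : ∀ p, w' p ≠ 0 ↔ y p ≠ 0 := fun p => by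
    obtain ⟨k, rfl⟩ := π.surjective p
    rw [hw'e, ← mem_sp (x := y)]
    by_cases hk : k ∈ T
    · rw [if_neg (fun e => hr (by rw [← e]; exact hk)), one_mul, ← hT]
      exact ⟨fun _ => Equiv.extendSubtype_mem e k hk, fun _ => hk⟩
    · have h1 : w k = 0 := not_not.1 fun h => hk ((hT k).2 h)
      simp [h1, π, Equiv.extendSubtype_not_mem e k hk]
  have hone : ∀ z : F, z ≠ 0 → Cir σ z := fun z hz => by
    have := FiniteField.pow_card_sub_one_eq_one z hz
    rw [hO.std.card, hq] at this
    show z * σ z = 1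
    rw [hO.std.frob, hq]; linear_combination this
  have hρ : ∀ p, ∃ ρ : Fˣ, Cir σ (ρ : F) ∧ (ρ : F) * w' p = y p := fun p => by
    by_cases hp : y p = 0
    · exact ⟨1, cir_one σ, by rw [hp, not_not.1 (fun h => (hsupp p).1 h hp), mul_zero]⟩
    · have hw0 := (hsupp p).2 hp
      exact ⟨Units.mk0 _ (div_ne_zero hp hw0), hone _ (div_ne_zero hp hw0), div_mul_cancel₀ _ hw0⟩
  choose ρ hρc hρe using hρ
  obtain ⟨p, -, hp⟩ := Finset.exists_mem_notMem_of_card_lt_card (s := sp y) (t := (Finset.univ : Finset ι))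
    (by rw [Finset.card_univ]; omega)
  have hyp : y p = 0 := not_not.1 fun h => hp (mem_sp.2 h)
  have hw'p : w' p = 0 := not_not.1 fun h => (hsupp p).1 h hyp
  obtain ⟨d, hd, hdi⟩ := hO.scale_vec (y := w') (p := p) ρ hρc
  convert hC.image hd (hO.iso d hd) using 1
  funext k
  rcases eq_or_ne k p with rfl | hk
  · obtain ⟨k', hk'⟩ := Fintype.exists_ne_of_one_lt_card (by omega : 1 < Fintype.card ι) k
    rw [((hdi 0 k' hk').2).2 hw'p, hyp]
  · rw [(hdi _ k hk).1, hρe]

omit hn hP in
theorem all_isotropic_two (hq : q = 2) (hn : 13 ≤ Fintype.card ι) {w : ι → F}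
    (hw : Centre hO.std.isUnitary M w) {T : Finset ι}
    (hT4 : T.card = 4) (hT : ∀ i, i ∈ T ↔ w i ≠ 0) :
    ∀ y, sf σ y y = 0 → Centre hO.std.isUnitary M y := by
  classical
  have hf := hO.std.isUnitary (ι := ι)
  have hone : ∀ z : F, z ≠ 0 → z * σ z = 1 := fun z hz => by
    have := FiniteField.pow_card_sub_one_eq_one z hz
    rw [hO.std.card, hq] at this
    rw [hO.std.frob, hq]; linear_combination this
  have h20 : (2 : F) = 0 := by
    have h4 : Fintype.card F = 4 := by rw [hO.std.card, hq]; norm_num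
    have h5 := Nat.cast_card_eq_zero F
    rw [h4] at h5
    push_cast at h5
    exact pow_eq_zero_iff (show 2 ≠ 0 by norm_num) |>.1 (by linear_combination h5)
  obtain ⟨ω, hω, hω2⟩ := exists_cir_sq_ne_one hO.std.card hO.std.frob
  have hω1 : ω ≠ 1 := fun e => hω2 (by rw [e, one_pow])
  have hω3 : ω ^ 3 = 1 := by
    have := FiniteField.pow_card_sub_one_eq_one ω hω.ne_zero
    rwa [hO.std.card, hq] at this
  have hωs : ω ^ 2 + ω + 1 = 0 :=
    (mul_eq_zero.1 (show (ω - 1) * (ω ^ 2 + ω + 1) = 0 by linear_combination hω3)).resolve_left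
      (sub_ne_zero.2 hω1)
  have norm_card : ∀ y : ι → F, sf σ y y = ((sp y).card : F) := fun y => by
    rw [sf, Finset.card_eq_sum_ones, Nat.cast_sum, ← Finset.sum_subset (Finset.subset_univ (sp y))
      fun i _ hi => by rw [mem_sp, not_not] at hi; rw [hi, zero_mul]]
    exact Finset.sum_congr rfl fun i hi => by rw [hone _ (mem_sp.1 hi), Nat.cast_one]
  intro y hy
  induction hcard : (sp y).card using Nat.strong_induction_on generalizing y with
  | _ s IH =>
  have hev : 2 ∣ s := by
    haveI : CharP F 2 := CharTwo.of_one_ne_zero_of_two_eq_zero one_ne_zero h20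
    rw [norm_card, hcard, CharP.cast_eq_zero_iff F 2] at hy
    exact hy
  obtain h0 | h2 | h4 | h6 : s = 0 ∨ s = 2 ∨ s = 4 ∨ 6 ≤ s := by omega
  · subst h0
    have : y = 0 := funext fun i => by
      by_contra hne
      have := Finset.card_pos.2 ⟨i, mem_sp.2 hne⟩
      omega
    subst this
    refine ⟨hy, fun c _ => ?_⟩
    convert M.one_mem using 1
    exact ext_mulVec fun x => by simp [uT_mulVec]
  · subst h2
    obtain ⟨i, j, hij, he⟩ := Finset.card_eq_two.1 hcard
    have hyi : y i ≠ 0 := mem_sp.1 (by rw [he]; simp)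
    have hyj : y j ≠ 0 := mem_sp.1 (by rw [he]; simp)
    have hye : y = pv i j (y i) (y j) := funext fun p => by
      rw [pv_apply hij]
      split_ifs with h1 h2
      · rw [h1]
      · rw [h2]
      · have : p ∉ sp y := by rw [he]; simp [h1, h2]
        rwa [mem_sp, not_not] at this
    rw [hye]
    exact pair_two hO hq hij hyi hyj (by rw [hone _ hyi, hone _ hyj]; linear_combination h20)
  · subst h4
    exact four_spread hO hq hn hw hT4 hT hcard
  · obtain ⟨X, hX, hX4⟩ := Finset.exists_subset_card_eq (s := sp y) (n := 4) (by omega)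
    obtain ⟨x1, x2, x3, x4, h12, h13, h14, h23, h24, h34, rfl⟩ := Finset.card_eq_four.1 hX4
    have hy1 := mem_sp.1 (hX (show x1 ∈ _ by simp))
    have hy2 := mem_sp.1 (hX (show x2 ∈ _ by simp))
    have hy3 := mem_sp.1 (hX (show x3 ∈ _ by simp))
    have hy4 := mem_sp.1 (hX (show x4 ∈ _ by simp))
    set u : ι → F := fun p => if p = x1 then y p else if p = x2 then y p else if p = x3 then ω * y p
      else if p = x4 then ω ^ 2 * y p else 0 with hu
    have hω0 := hω.ne_zero
    have huX : sp u = {x1, x2, x3, x4} := by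
      ext p
      rw [mem_sp, hu]
      simp only [Finset.mem_insert, Finset.mem_singleton]
      split_ifs with a b c d <;> simp_all
    have huy : sf σ u y = 1 := by
      rw [sf, ← Finset.sum_subset (Finset.subset_univ (sp u)) fun i _ hi => by
        rw [mem_sp, not_not] at hi; rw [hi, zero_mul]]
      rw [huX, Finset.sum_insert (by simp [h12, h13, h14]), Finset.sum_insert (by simp [h23, h24]),
        Finset.sum_insert (by simp [h34]), Finset.sum_singleton]
      simp [hu, Ne.symm h12, Ne.symm h13, Ne.symm h14, Ne.symm h23, Ne.symm h24, Ne.symm h34]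
      rw [hone _ hy1, hone _ hy2, mul_assoc, mul_assoc, hone _ hy3, hone _ hy4]
      linear_combination hωs
    have huC : Centre hO.std.isUnitary M u := four_spread hO hq hn hw hT4 hT (by rw [huX]; exact hX4)
    have hsub : sp (y - u) ⊆ ((sp y).erase x1).erase x2 := by
      intro p hp
      rw [mem_sp, Pi.sub_apply] at hp
      rw [Finset.mem_erase, Finset.mem_erase, mem_sp]
      refine ⟨fun e => hp ?_, fun e => hp ?_, fun e => hp ?_⟩
      · subst e; simp [hu]
      · subst e; simp [hu]
      · rw [e, hu]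
        simp only [e, mul_zero]
        split_ifs <;> simp
    have hlt : (sp (y - u)).card < s := by
      refine lt_of_le_of_lt (Finset.card_le_card hsub) ?_
      rw [← hcard]
      exact lt_of_le_of_lt (Finset.card_le_card (Finset.erase_subset _ _))
        (Finset.card_erase_lt_of_mem (mem_sp.2 hy1))
    have hd : sf σ (y - u) (y - u) = 0 := by
      rw [UnitCentres.sub_left hf, UnitCentres.sub_right hf, UnitCentres.sub_right hf, hy, huC.iso,
        hf.herm y u, huy, map_one]
      linear_combination -h20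
    exact huC.of_move (IH _ hlt _ hd rfl) (by rw [huy]; exact one_ne_zero) hy

end CfsgLib.UnitMono
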