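import Mathlib
import Cfsg.Agent.Classical.UnitMono.FixEven
import Cfsg.Agent.Classical.UnitMono.Spread

/-!
In a proper overgroup of the special monomial unitary group all isotropic vectors are centres.
-/

set_option autoImplicit false

namespace CfsgLib.UnitMono

open Matrix CfsgLib.TransvGL CfsgLib.MonoBasics CfsgLib.UnitCentres CfsgLib.CircleSums

variable {ι : Type} [Fintype ι] [DecidableEq ι] {F : Type*} [Field F] [Fintype F]
variable {q : ℕ} {σ : F ≃+* F} {M : Subgroup (GL ι F)}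

local notation "ax" i:max => (Pi.single i (1 : F) : ι → F)

theorem all_centres (hO : Over q σ M) (hn : 13 ≤ Fintype.card ι) {g₀ : GL ι F} (hg₀ : g₀ ∈ M)
    (hnm : ¬ IsMono g₀) : ∀ y, sf σ y y = 0 → Centre hO.std.isUnitary M y := by
  obtain ⟨h, hh, hhm, a, ha⟩ := exists_fix hO hn hg₀ hnm
  obtain ⟨c, hc⟩ := Submodule.mem_span_singleton.1 ha
  obtain ⟨w, hw, hwa, hw0, hwq⟩ := exists_centre hO hn hh hhm hc.symm
  by_cases hq : q = 2
  · obtain ⟨T, hT4, hT⟩ := hwq hq
    exact all_isotropic_two hO hq hn hw hT4 hT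
  · have hq3 : 3 ≤ q := by have := hO.std.two_le; omega
    obtain ⟨l, m, x, y, hlm, hx, hy, hC⟩ := pair_seed hO hn hq3 hw hwa hw0
    exact all_isotropic hO hn
      (fun hij _ _ hx' hy' h0 => pair_all hO hn hlm hx hy hC hij hx' hy' h0) hq3

end CfsgLib.UnitMono
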