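import Mathlib
import Cfsg.Agent.Classical.UnitMono.Basic

/-!
Unipotent products of two pseudo-reflections produce a full group of transvections.
-/

set_option autoImplicit false

namespace CfsgLib.UnitMono

open Matrix CfsgLib.TransvGL CfsgLib.MonoBasics CfsgLib.UnitCentres CfsgLib.PseudoRefl
  CfsgLib.CircleSums

variable {ι : Type} [Fintype ι] [DecidableEq ι] {F : Type*} [Field F] [Fintype F]
variable {q : ℕ} {σ : F ≃+* F}

/-- The unipotent map with parameters `α`, `β` attached to `u` and the isotropic `w`. -/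
def Sie (σ : F ≃+* F) (u w : ι → F) (g : GL ι F) (α β : F) : Prop :=
  ∀ x, (g : Matrix ι ι F) *ᵥ x =
    x - (σ α * sf σ x w) • u + (α * sf σ x u + β * sf σ x w) • w

theorem subfield_eq_top (hS : Std q σ) (T : Subfield F) (hT : ∀ z, Cir σ z → z ∈ T) : T = ⊤ := by
  classical
  have h1 : q + 1 < Nat.card T := by
    rw [← card_cir hS.card hS.frob, ← SetLike.coe_sort_coe, Nat.card_coe_set_eq,
      Set.ncard_eq_toFinset_card' (T : Set F)]
    refine Finset.card_lt_card ⟨fun z hz => Set.mem_toFinset.2 (hT z (Finset.mem_filter.1 hz).2),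
      fun hsub => ?_⟩
    have := (Finset.mem_filter.1 (hsub (Set.mem_toFinset.2 T.zero_mem))).2
    simpa [Cir] using this
  haveI : Fintype T := Fintype.ofFinite T
  have h2 := Module.card_eq_pow_finrank (K := T) (V := F)
  rw [hS.card, ← Nat.card_eq_fintype_card] at h2
  have h3 : Module.finrank T F = 1 := by
    rcases Nat.lt_or_ge (Module.finrank T F) 2 with h | h
    · have := Module.finrank_pos (R := T) (M := F)
      omega
    · exfalso
      have h4 := Nat.pow_le_pow_right (show 1 ≤ Nat.card T by omega) h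
      rw [← h2] at h4
      nlinarith
  rw [h3, pow_one] at h2
  refine SetLike.coe_injective (Set.eq_of_subset_of_ncard_le (Set.subset_univ _) ?_)
  rw [Subfield.coe_top, Set.ncard_univ, Nat.card_eq_fintype_card, hS.card, h2, ← Nat.card_coe_set_eq]
  rfl

variable {M : Subgroup (GL ι F)} {u w : ι → F} (hS : Std q σ)
  (hu : sf σ u u = 1) (hwu : sf σ w u = 0) (hw : sf σ w w = 0)
include hS hu hwu hw

theorem Sie.mul {g g' : GL ι F} {α β α' β' : F} (h : Sie σ u w g α β) (h' : Sie σ u w g' α' β') :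
    Sie σ u w (g * g') (α + α') (β + β' - α * σ α') := fun x => by
  have hf := hS.isUnitary (ι := ι)
  have huw : sf σ u w = 0 := orth_comm hf hwu
  rw [Units.val_mul, ← mulVec_mulVec, h' x, h]
  simp only [hf.add_left, UnitCentres.sub_left hf, hf.smul_left, hu, hwu, hw, huw, map_add]
  module

theorem Sie.inv {g : GL ι F} {α β : F} (h : Sie σ u w g α β) :
    Sie σ u w g⁻¹ (-α) (-β - α * σ α) := fun x => by
  have hf := hS.isUnitary (ι := ι)
  have huw : sf σ u w = 0 := orth_comm hf hwu
  have e : (g : Matrix ι ι F) *ᵥ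
      (x - (σ (-α) * sf σ x w) • u + (-α * sf σ x u + (-β - α * σ α) * sf σ x w) • w) = x := by
    rw [h]
    simp only [hf.add_left, UnitCentres.sub_left hf, hf.smul_left, hu, hwu, hw, huw, map_neg]
    module
  conv_lhs => rw [← e, inv_mulVec_mulVec]

theorem centre_of_sie (hgen : ∀ z : F, Cir σ z → ∃ g ∈ M, Sie σ u w g (z - 1) (z - 1)) :
    Centre hS.isUnitary M w := by
  classical
  let Γ : AddSubgroup F :=
    { carrier := {α | ∃ β, ∃ g ∈ M, Sie σ u w g α β}
      add_mem' := fun {a b} ⟨β, g, hg, h⟩ ⟨β', g', hg', h'⟩ =>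
        ⟨_, g * g', M.mul_mem hg hg', h.mul hS hu hwu hw h'⟩
      zero_mem' := ⟨0, 1, M.one_mem, fun x => by simp⟩
      neg_mem' := fun {a} ⟨β, g, hg, h⟩ => ⟨_, g⁻¹, M.inv_mem hg, h.inv hS hu hwu hw⟩ }
  set Γ0 := AddSubgroup.closure {x : F | ∃ z, Cir σ z ∧ z - 1 = x} with hΓ0
  have hle : Γ0 ≤ Γ := (AddSubgroup.closure_le _).2 fun x ⟨z, hz, e⟩ =>
    e ▸ let ⟨g, hg, h⟩ := hgen z hz; ⟨_, g, hg, h⟩
  let Tm : Submonoid F :=
    { carrier := {r | ∀ x ∈ Γ0, r * x ∈ Γ0}
      one_mem' := fun x hx => by rwa [one_mul]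
      mul_mem' := fun {a b} ha hb x hx => by rw [mul_assoc]; exact ha _ (hb x hx) }
  let T : Subfield F :=
    { Tm with
      add_mem' := fun {a b} ha hb x hx => by rw [add_mul]; exact Γ0.add_mem (ha x hx) (hb x hx)
      zero_mem' := fun x _ => by rw [zero_mul]; exact Γ0.zero_mem
      neg_mem' := fun {a} ha x hx => by rw [neg_mul]; exact Γ0.neg_mem (ha x hx)
      inv_mem' := fun a (ha : a ∈ Tm) => by
        show a⁻¹ ∈ Tm
        by_cases h0 : a = 0
        · rw [h0, _root_.inv_zero]; exact h0 ▸ ha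
        · have h1 : a * a ^ (Fintype.card F - 2) = 1 := by
            rw [← pow_succ', show Fintype.card F - 2 + 1 = Fintype.card F - 1 by
              have := Fintype.one_lt_card (α := F); omega]
            exact FiniteField.pow_card_sub_one_eq_one a h0
          rw [← eq_inv_of_mul_eq_one_right h1]
          exact Tm.pow_mem ha _ }
  have hT : T = ⊤ := subfield_eq_top hS T fun z hz x hx => by
    induction hx using AddSubgroup.closure_induction with
    | mem x hx =>
      obtain ⟨y, hy, rfl⟩ := hx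
      rw [show z * (y - 1) = (z * y - 1) - (z - 1) by ring]
      exact Γ0.sub_mem (AddSubgroup.subset_closure ⟨z * y, hz.mul hy, rfl⟩)
        (AddSubgroup.subset_closure ⟨z, hz, rfl⟩)
    | zero => rw [mul_zero]; exact Γ0.zero_mem
    | add a b _ _ ha hb => rw [mul_add]; exact Γ0.add_mem ha hb
    | neg a _ ha => rw [mul_neg]; exact Γ0.neg_mem ha
  have hall : ∀ x : F, x ∈ Γ := fun x => by
    obtain ⟨z0, hz0, hz02⟩ := exists_cir_sq_ne_one hS.card hS.frob
    have hne : z0 - 1 ≠ 0 := sub_ne_zero.2 fun e => hz02 (by rw [e, one_pow])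
    have h1 : x / (z0 - 1) ∈ T := hT ▸ Subfield.mem_top _
    have h2 := h1 (z0 - 1) (AddSubgroup.subset_closure ⟨z0, hz0, rfl⟩)
    rw [div_mul_cancel₀ _ hne] at h2
    exact hle h2
  refine ⟨hw, fun c hc => ?_⟩
  obtain ⟨a, ha⟩ := exists_trace_one (hS.isUnitary (ι := ι))
  obtain ⟨β, g, hg, h⟩ := hall 1
  obtain ⟨β', g', hg', h'⟩ := hall (c * a)
  have hA := h.mul hS hu hwu hw h'
  have hB := h'.mul hS hu hwu hw h
  have hf := hS.isUnitary (ι := ι)
  have huw : sf σ u w = 0 := orth_comm hf hwu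
  have e : uT hf hw c * (g' * g) = g * g' := by
    refine ext_mulVec fun x => ?_
    rw [Units.val_mul, ← mulVec_mulVec, uT_mulVec, hB x, hA x]
    simp only [hf.add_left, UnitCentres.sub_left hf, hf.smul_left, huw, hw, map_add, map_one, map_mul,
      add_comm (1 : F) (c * a), add_comm (1 : F) (σ c * σ a)]
    rw [eq_neg_of_add_eq_zero_right hc]
    match_scalars <;> first | ring1 | linear_combination (-(c * sf σ x w)) * ha
  have : uT hf hw c = g * g' * (g' * g)⁻¹ := by rw [eq_mul_inv_iff_mul_eq, e]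
  rw [this]
  exact M.mul_mem (M.mul_mem hg hg') (M.inv_mem (M.mul_mem hg' hg))

end CfsgLib.UnitMono
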